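import Cfsg.Agent.LX.Basic
import Mathlib.Algebra.QuadraticAlgebra.Basic

/-! Unitary groups in characteristic two as permutation groups of the natural module: data and
Eichler calculus over a commutative ring with involution. -/

set_option autoImplicit false
set_option linter.unusedSectionVars false

namespace CF.U5

open Subgroup Equiv CF.Loc CF.LX
open scoped commutatorElement

section ring
variable {A : Type} [CommRing A] {m : ℕ} (σ : A ≃+* A)

/-- the hermitian form with antidiagonal Gram matrix -/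
def hf (x y : Fin m → A) : A := ∑ i, x i * σ (y i.rev)

/-- the standard basis, indexed by natural numbers -/
def bv (j : ℕ) : Fin m → A := fun i => if i.val = j then 1 else 0

/-- the standard flag -/
def Vf (A : Type) [CommRing A] (m j : ℕ) : Submodule A (Fin m → A) where
  carrier := {x | ∀ i : Fin m, j ≤ i.val → x i = 0}
  add_mem' := fun a b i h => by simp [a i h, b i h]
  zero_mem' := fun _ _ => rfl
  smul_mem' := fun c _ a i h => by simp [a i h]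

/-- `θ`-semilinear isometries -/
structure Sem (θ : A ≃+* A) (ξ : Perm (Fin m → A)) : Prop where
  add : ∀ x y, ξ (x + y) = ξ x + ξ y
  smul : ∀ c x, ξ (c • x) = θ c • ξ x
  form : ∀ x y, hf σ (ξ x) (ξ y) = θ (hf σ x y)
  com : ∀ c, θ (σ c) = σ (θ c)

/-- `σ` is an involution -/
def Iv : Prop := ∀ a, σ (σ a) = a

/-- admissible parameters of an Eichler transformation -/
structure Ok (v n : Fin m → A) (ζ : A) : Prop where
  iv : Iv σ
  vv : hf σ v v = 0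
  nv : hf σ n v = 0
  tr : ζ + σ ζ = hf σ n n

variable {σ} {θ θ' : A ≃+* A} {ξ ξ' g : Perm (Fin m → A)} {u v w n n' x y : Fin m → A} {a b c ζ ζ' : A} {i j : ℕ}

theorem mem_Vf : x ∈ Vf A m j ↔ ∀ i : Fin m, j ≤ i.val → x i = 0 := Iff.rfl
theorem Vf_mono (h : i ≤ j) : Vf A m i ≤ Vf A m j := fun _ a k l => a k (h.trans l)
theorem bv_mem (h : i < j) : (bv i : Fin m → A) ∈ Vf A m j := fun k l => if_neg (by omega)
@[simp] theorem hf_add_l (x y w : Fin m → A) : hf σ (x + y) w = hf σ x w + hf σ y w := by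
  simp [hf, add_mul, Finset.sum_add_distrib]
@[simp] theorem hf_add_r (x y w : Fin m → A) : hf σ w (x + y) = hf σ w x + hf σ w y := by
  simp [hf, mul_add, Finset.sum_add_distrib]
@[simp] theorem hf_smul_l (c : A) (x y : Fin m → A) : hf σ (c • x) y = c * hf σ x y := by
  simp [hf, Finset.mul_sum, mul_assoc]
@[simp] theorem hf_smul_r (c : A) (x y : Fin m → A) : hf σ x (c • y) = σ c * hf σ x y := by
  simp [hf, Finset.mul_sum, mul_left_comm]
@[simp] theorem hf_zero_l (y : Fin m → A) : hf σ 0 y = 0 := by simp [hf]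
@[simp] theorem hf_zero_r (y : Fin m → A) : hf σ y 0 = 0 := by simp [hf]
theorem hf_sym (s : Iv σ) (x y : Fin m → A) : σ (hf σ x y) = hf σ y x := by
  simp only [hf, map_sum, map_mul, s _]
  exact Fintype.sum_equiv Fin.revPerm _ _ fun i => by simp [mul_comm]
theorem hf_swap (s : Iv σ) (h : hf σ x y = 0) : hf σ y x = 0 := by rw [← hf_sym s, h, map_zero]
theorem hf_bv (x : Fin m → A) (i : Fin m) : hf σ x (bv i.rev.val) = x i := by
  rw [hf, Finset.sum_eq_single i] <;> simp +contextual [bv, Fin.val_inj, -Fin.val_rev]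
theorem hf_ext (h : ∀ w, hf σ x w = hf σ y w) : x = y := funext fun i => by rw [← hf_bv (σ := σ) x, h, hf_bv]
theorem hf_Vf (hx : x ∈ Vf A m i) (hy : y ∈ Vf A m j) (h : i + j ≤ m) : hf σ x y = 0 :=
  Finset.sum_eq_zero fun k _ => by
    by_cases e : i ≤ k.val
    · rw [hx k e, zero_mul]
    · rw [hy k.rev (by rw [Fin.val_rev]; omega), map_zero, mul_zero]

theorem Sem.zero (h : Sem σ θ ξ) : ξ 0 = 0 := by simpa using h.add 0 0
theorem sem_one : Sem σ 1 (1 : Perm (Fin m → A)) := ⟨fun _ _ => rfl, fun _ _ => rfl, fun _ _ => rfl, fun _ => rfl⟩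
theorem Sem.mul (h : Sem σ θ ξ) (k : Sem σ θ' ξ') : Sem σ (θ * θ') (ξ * ξ') :=
  ⟨fun x y => by simp [k.add, h.add], fun c x => by simp [k.smul, h.smul], fun x y => by simp [k.form, h.form],
    fun c => by simp [k.com, h.com]⟩
theorem Sem.inv (h : Sem σ θ ξ) : Sem σ θ⁻¹ ξ⁻¹ :=
  have e : ∀ c, θ (θ⁻¹ c) = c := θ.apply_symm_apply
  ⟨fun x y => ξ.injective (by simp [h.add]), fun c x => ξ.injective (by simp [h.smul, e]),
    fun x y => θ.injective (by simp [← h.form, e]), fun c => θ.injective (by rw [e, h.com, e])⟩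
theorem Sem.mul1 (h : Sem σ 1 ξ) (k : Sem σ 1 ξ') : Sem σ 1 (ξ * ξ') := h.mul k
theorem Sem.inv1 (h : Sem σ 1 ξ) : Sem σ 1 ξ⁻¹ := h.inv
theorem Sem.smul1 (h : Sem σ 1 ξ) (c : A) (x : Fin m → A) : ξ (c • x) = c • ξ x := h.smul c x
theorem Sem.form1 (h : Sem σ 1 ξ) (x y : Fin m → A) : hf σ (ξ x) (ξ y) = hf σ x y := h.form x y
theorem Sem.cj (h : Sem σ θ ξ) (k : Sem σ 1 g) : Sem σ 1 (ξ * g * ξ⁻¹) := by simpa using (h.mul k).mul h.inv

variable (σ) in
/-- linear isometries -/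
def GU (m : ℕ) : Subgroup (Perm (Fin m → A)) where
  carrier := {g | Sem σ 1 g}
  mul_mem' := Sem.mul1
  one_mem' := sem_one
  inv_mem' := Sem.inv1

variable (σ) in
/-- semilinear isometries -/
def Gam (m : ℕ) : Subgroup (Perm (Fin m → A)) where
  carrier := {g | ∃ θ, Sem σ θ g}
  mul_mem' := fun ⟨_, a⟩ ⟨_, b⟩ => ⟨_, a.mul b⟩
  one_mem' := ⟨_, sem_one⟩
  inv_mem' := fun ⟨_, a⟩ => ⟨_, a.inv⟩

theorem GU_le : GU σ m ≤ Gam σ m := fun _ h => ⟨_, h⟩

/-- scalar maps -/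
def Sc (g : Perm (Fin m → A)) : Prop := ∃ c : A, ∀ x, g x = c • x

/-- stabilises the standard flag -/
def Fl (g : Perm (Fin m → A)) : Prop := ∀ j, ∀ x ∈ Vf A m j, g x ∈ Vf A m j

variable (σ) in
/-- totally isotropic subspaces -/
def Ti (X : Submodule A (Fin m → A)) : Prop := ∀ x ∈ X, ∀ y ∈ X, hf σ x y = 0

variable (σ) in
/-- linear isometries moving every vector inside a coset of `X` -/
def WX (X : Submodule A (Fin m → A)) : Subgroup (Perm (Fin m → A)) where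
  carrier := {g | Sem σ 1 g ∧ ∀ x, g x - x ∈ X}
  mul_mem' := fun {g k} a b => ⟨a.1.mul1 b.1, fun x => by simpa using X.add_mem (a.2 (k x)) (b.2 x)⟩
  one_mem' := ⟨sem_one, by simp⟩
  inv_mem' := fun {g} a => ⟨a.1.inv1, fun x => by simpa using X.neg_mem (a.2 (g⁻¹ x))⟩

variable (σ) in
/-- the Thompson subgroup of `UT` -/
abbrev WW (m : ℕ) : Subgroup (Perm (Fin m → A)) := WX σ (Vf A m (m / 2))

/-- all unitriangular maps -/
def UP (A : Type) [CommRing A] (m : ℕ) : Subgroup (Perm (Fin m → A)) where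
  carrier := {g | (∀ x y, g (x + y) = g x + g y) ∧ (∀ (c : A) x, g (c • x) = c • g x) ∧
    (∀ j, ∀ x ∈ Vf A m (j + 1), g x - x ∈ Vf A m j) ∧ ∀ j, ∀ x ∈ Vf A m (j + 1), g⁻¹ x - x ∈ Vf A m j}
  mul_mem' := fun {g k} a b => by
    have s : ∀ {g k : Perm (Fin m → A)}, (∀ j, ∀ x ∈ Vf A m (j + 1), g x - x ∈ Vf A m j) →
        (∀ j, ∀ x ∈ Vf A m (j + 1), k x - x ∈ Vf A m j) → ∀ j, ∀ x ∈ Vf A m (j + 1), (g * k) x - x ∈ Vf A m j :=
      fun {g k} a b j x h => by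
        simpa using (Vf A m j).add_mem (a j (k x) (by simpa using add_mem (Vf_mono j.le_succ (b j x h)) h)) (b j x h)
    exact ⟨fun x y => by simp [a.1, b.1], fun c x => by simp [a.2.1, b.2.1], s a.2.2.1 b.2.2.1,
      by rw [mul_inv_rev]; exact s b.2.2.2 a.2.2.2⟩
  one_mem' := by simp [-Perm.coe_inv]
  inv_mem' := fun {g} a => ⟨fun x y => g.injective (by simp [a.1]), fun c x => g.injective (by simp [a.2.1]), a.2.2.2,
    by simpa using a.2.2.1⟩

variable (σ) in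
/-- unitriangular isometries -/
def UT (m : ℕ) : Subgroup (Perm (Fin m → A)) := GU σ m ⊓ UP A m

variable [CharP A 2]

theorem vv (x : Fin m → A) : x + x = 0 := funext fun i => CharTwo.add_self_eq_zero (x i)
theorem vsub (x y : Fin m → A) : x - y = x + y := funext fun i => CharTwo.sub_eq_add (x i) (y i)

variable (σ) in
/-- the Eichler map -/
def ef (v n : Fin m → A) (ζ : A) (x : Fin m → A) : Fin m → A :=
  x + hf σ x v • n + (hf σ x n + ζ * hf σ x v) • v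

theorem Ok.vn (h : Ok σ v n ζ) : hf σ v n = 0 := hf_swap h.iv h.nv
theorem Ok.mul (h : Ok σ v n ζ) (k : Ok σ v n' ζ') : Ok σ v (n + n') (ζ + ζ' + hf σ n' n) :=
  ⟨h.iv, h.vv, by simp [h.nv, k.nv], by
    simp only [map_add, hf_add_l, hf_add_r, hf_sym h.iv, ← h.tr, ← k.tr]; ring⟩
theorem Ok.inv (h : Ok σ v n ζ) : Ok σ v n (σ ζ) := ⟨h.iv, h.vv, h.nv, by rw [h.iv, add_comm, h.tr]⟩
theorem ok_tv (s : Iv σ) (h : hf σ v v = 0) (e : σ a = a) : Ok σ v 0 a :=
  ⟨s, h, by simp, by simp [e, CharTwo.add_self_eq_zero]⟩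
theorem ok_iso (s : Iv σ) (h : hf σ v v = 0) (k : hf σ n n = 0) (e : hf σ n v = 0) : Ok σ v n 0 := ⟨s, h, e, by simp [k]⟩
theorem Ok.fix (h : Ok σ v 0 a) : σ a = a := by
  have := h.tr; rw [hf_zero_l] at this; grind
theorem ef_ef (h : Ok σ v n ζ) (k : Ok σ v n' ζ') (x : Fin m → A) :
    ef σ v n ζ (ef σ v n' ζ' x) = ef σ v (n + n') (ζ + ζ' + hf σ n' n) x := by
  simp only [ef, hf_add_l, hf_add_r, hf_smul_l, h.vv, k.nv, h.vn]; module
theorem ef_inv (h : Ok σ v n ζ) (x : Fin m → A) : ef σ v n ζ (ef σ v n (σ ζ) x) = x := by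
  rw [ef_ef h h.inv, vv, h.tr, CharTwo.add_self_eq_zero]; simp [ef]

open Classical in
variable (σ) in
/-- Eichler transformations; `E v 0 a` are the transvections -/
noncomputable def E (v n : Fin m → A) (ζ : A) : Perm (Fin m → A) :=
  if h : Ok σ v n ζ then ⟨ef σ v n ζ, ef σ v n (σ ζ), fun x => by simpa [h.iv ζ] using ef_inv h.inv x, ef_inv h⟩ else 1

theorem E_ap (h : Ok σ v n ζ) (x : Fin m → A) : E σ v n ζ x = x + hf σ x v • n + (hf σ x n + ζ * hf σ x v) • v := by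
  rw [E, dif_pos h]; rfl
theorem E_junk (h : ¬ Ok σ v n ζ) : E σ v n ζ = 1 := dif_neg h
theorem E_mul (h : Ok σ v n ζ) (k : Ok σ v n' ζ') : E σ v n ζ * E σ v n' ζ' = E σ v (n + n') (ζ + ζ' + hf σ n' n) :=
  Equiv.ext fun x => by rw [Perm.mul_apply, E_ap h, E_ap k, E_ap (h.mul k)]; exact ef_ef h k x
@[simp] theorem E_zero (v : Fin m → A) : E σ v 0 0 = 1 := by
  by_cases h : Ok σ v 0 0
  · exact Equiv.ext fun x => by simp [E_ap h]
  · exact E_junk h
theorem E_zero_v (a : A) : E σ (0 : Fin m → A) 0 a = 1 := by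
  by_cases h : Ok σ (0 : Fin m → A) 0 a
  · exact Equiv.ext fun x => by simp [E_ap h]
  · exact E_junk h
theorem E_inv (h : Ok σ v n ζ) : (E σ v n ζ)⁻¹ = E σ v n (σ ζ) := inv_eq_of_mul_eq_one_right (by
  rw [E_mul h h.inv, vv, h.tr, CharTwo.add_self_eq_zero, E_zero])
theorem E_sq (h : Ok σ v n ζ) : E σ v n ζ * E σ v n ζ = E σ v 0 (hf σ n n) := by
  rw [E_mul h h, vv, CharTwo.add_self_eq_zero, zero_add]
theorem E_sem (v n : Fin m → A) (ζ : A) : Sem σ 1 (E σ v n ζ) := by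
  by_cases h : Ok σ v n ζ
  · refine ⟨fun x y => ?_, fun c x => ?_, fun x y => ?_, fun _ => rfl⟩
    · simp only [E_ap h, hf_add_l]; module
    · simp only [E_ap h, hf_smul_l]; change _ = c • _; module
    · have := h.tr
      simp only [E_ap h, hf_add_l, hf_add_r, hf_smul_l, hf_smul_r, h.vv, h.nv, h.vn, map_add, map_mul, hf_sym h.iv]
      change _ = hf σ x y
      grind
  · rw [E_junk h]; exact sem_one
theorem Ok.cj (k : Sem σ θ ξ) (h : Ok σ v n ζ) : Ok σ (ξ v) (ξ n) (θ ζ) :=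
  ⟨h.iv, by rw [k.form, h.vv, map_zero], by rw [k.form, h.nv, map_zero], by rw [k.form, ← h.tr, map_add, k.com]⟩
theorem E_cj (k : Sem σ θ ξ) (v n : Fin m → A) (ζ : A) : ξ * E σ v n ζ * ξ⁻¹ = E σ (ξ v) (ξ n) (θ ζ) := by
  by_cases h : Ok σ v n ζ
  · refine Equiv.ext fun x => ?_
    obtain ⟨x, rfl⟩ := ξ.surjective x
    simp [E_ap h, E_ap (h.cj k), k.add, k.smul, k.form]
  · rw [E_junk h, E_junk fun e => h (by simpa using (e.cj k.inv : Ok σ _ _ (θ.symm (θ ζ))))]; simp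
theorem E_cj1 (k : Sem σ 1 ξ) (v n : Fin m → A) (ζ : A) : ξ * E σ v n ζ * ξ⁻¹ = E σ (ξ v) (ξ n) ζ := E_cj k v n ζ
theorem tv_cj (k : Sem σ θ ξ) (v : Fin m → A) (a : A) : ξ * E σ v 0 a * ξ⁻¹ = E σ (ξ v) 0 (θ a) := by rw [E_cj k, k.zero]
theorem tv_cj1 (k : Sem σ 1 ξ) (v : Fin m → A) (a : A) : ξ * E σ v 0 a * ξ⁻¹ = E σ (ξ v) 0 a := tv_cj k v a
theorem Ok.smul (h : Ok σ (c • v) n ζ) (hv : hf σ v v = 0) (k : hf σ n v = 0) : Ok σ v (σ c • n) (c * σ c * ζ) :=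
  ⟨h.iv, hv, by simp [k], by simp only [map_mul, h.iv c, hf_smul_l, hf_smul_r, ← h.tr]; ring⟩
theorem E_smul (h : Ok σ (c • v) n ζ) (hv : hf σ v v = 0) (k : hf σ n v = 0) :
    E σ (c • v) n ζ = E σ v (σ c • n) (c * σ c * ζ) := Equiv.ext fun x => by
  simp only [E_ap h, E_ap (h.smul hv k), hf_smul_r, h.iv c]; module
theorem tv_smul (s : Iv σ) (h : hf σ v v = 0) (e : σ a = a) (c : A) : E σ (c • v) 0 a = E σ v 0 (c * σ c * a) := by
  rw [E_smul (ok_tv s (by simp [h]) e) h (by simp), smul_zero]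
theorem Ok.shift (h : Ok σ v n ζ) (a : A) : Ok σ v (n + a • v) (ζ + a + σ a) :=
  ⟨h.iv, h.vv, by simp [h.nv, h.vv], by have := h.tr; simp [h.nv, h.vn, h.vv, h.iv a]; grind⟩
theorem E_shift (h : Ok σ v n ζ) (a : A) : E σ v (n + a • v) (ζ + a + σ a) = E σ v n ζ := Equiv.ext fun x => by
  simp only [E_ap h, E_ap (h.shift a), hf_add_r, hf_smul_r]; ext i; simp; grind
theorem tv_mul (s : Iv σ) (h : hf σ v v = 0) (e : σ a = a) (e' : σ b = b) : E σ v 0 a * E σ v 0 b = E σ v 0 (a + b) := by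
  simp [E_mul (ok_tv s h e) (ok_tv s h e')]
theorem tv_sq (v : Fin m → A) (a : A) : E σ v 0 a * E σ v 0 a = 1 := by
  by_cases h : Ok σ v 0 a
  · simp [E_sq h]
  · simp [E_junk h]
theorem E_comm (h : Ok σ v n ζ) (k : Ok σ v n' ζ') : ⁅E σ v n ζ, E σ v n' ζ'⁆ = E σ v 0 (hf σ n n' + hf σ n' n) := by
  rw [commutatorElement_def, E_inv h, E_inv k, E_mul h k, E_mul (h.mul k) h.inv, E_mul ((h.mul k).mul h.inv) k.inv]
  have := h.tr; have := k.tr
  congr 1
  · rw [add_right_comm n, vv, zero_add, vv]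
  · simp only [hf_add_r]; grind
theorem E_fix (h : hf σ x v = 0) (k : hf σ x n = 0) (ζ : A) : E σ v n ζ x = x := by
  by_cases o : Ok σ v n ζ
  · simp [E_ap o, h, k]
  · simp [E_junk o]
theorem E_swap (s : Iv σ) (hu : hf σ u u = 0) (hv : hf σ v v = 0) (e : hf σ u v = 0) : E σ u v 0 = E σ v u 0 :=
  Equiv.ext fun x => by simp only [E_ap (ok_iso s hu hv (hf_swap s e)), E_ap (ok_iso s hv hu e)]; module
theorem tv_pol (s : Iv σ) (hu : hf σ u u = 0) (hv : hf σ v v = 0) (e : hf σ u v = 0) (f : σ a = a) :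
    E σ (u + v) 0 a * E σ u 0 a * E σ v 0 a = E σ u (a • v) 0 := Equiv.ext fun x => by
  have e' := hf_swap s e
  simp only [Perm.mul_apply, E_ap (ok_tv s hu f), E_ap (ok_tv s hv f), E_ap (ok_tv s (v := u + v) (by simp [*]) f),
    E_ap (ok_iso s hu (n := a • v) (by simp [hv]) (by simp [e'])), hf_add_l, hf_add_r, hf_smul_l, hf_smul_r, hu, hv, e, e', f]
  ext i; simp; grind
theorem tv_five (s : Iv σ) (hu : hf σ u u = 0) (hv : hf σ v v = 0) (e : hf σ u v = 0) (f : σ a = a) (o : c + σ c = 1) :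
    E σ v 0 a * E σ (u + v) 0 a * E σ (c • u + v) 0 a * E σ (σ c • u + v) 0 a = E σ u 0 a := Equiv.ext fun x => by
  have e' := hf_swap s e
  simp only [Perm.mul_apply, E_ap (ok_tv s hu f), E_ap (ok_tv s hv f), E_ap (ok_tv s (v := u + v) (by simp [*]) f),
    E_ap (ok_tv s (v := c • u + v) (by simp [*]) f), E_ap (ok_tv s (v := σ c • u + v) (by simp [*]) f),
    hf_add_l, hf_add_r, hf_smul_l, hf_smul_r, hu, hv, e, e', s c]
  ext i; simp; grind

variable (σ) in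
/-- the group generated by the transvections -/
def SU (m : ℕ) : Subgroup (Perm (Fin m → A)) := closure {g | ∃ v a, g = E σ v 0 a}

variable (σ) in
/-- the stabiliser of a vector -/
def Y (v : Fin m → A) : Subgroup (Perm (Fin m → A)) := SU σ m ⊓ MulAction.stabilizer _ v

variable (σ) in
/-- the Eichler transformations at `v` -/
def Q (v : Fin m → A) : Subgroup (Perm (Fin m → A)) := closure {g | ∃ n ζ, g = E σ v n ζ}

variable (σ) in
/-- the transvections at `v` -/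
def Z (v : Fin m → A) : Subgroup (Perm (Fin m → A)) := closure {g | ∃ a, g = E σ v 0 a}

theorem tv_SU (v : Fin m → A) (a : A) : E σ v 0 a ∈ SU σ m := subset_closure ⟨v, a, rfl⟩
theorem SU_le : SU σ m ≤ GU σ m := (closure_le _).2 fun _ ⟨_, _, e⟩ => e ▸ E_sem ..
theorem su_sem (h : g ∈ SU σ m) : Sem σ 1 g := SU_le h
theorem Sem.su (k : Sem σ θ ξ) (h : g ∈ SU σ m) : ξ * g * ξ⁻¹ ∈ SU σ m := by
  induction h using closure_induction with
  | mem _ e => obtain ⟨v, a, rfl⟩ := e; rw [tv_cj k]; exact tv_SU _ _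
  | one => simp
  | mul a b _ _ p q => rw [conj_mul_conj]; exact mul_mem p q
  | inv a _ p => simpa [mul_assoc] using inv_mem p
theorem mem_Y : g ∈ Y σ v ↔ g ∈ SU σ m ∧ g v = v := Iff.rfl
theorem E_Q (v n : Fin m → A) (ζ : A) : E σ v n ζ ∈ Q σ v := subset_closure ⟨n, ζ, rfl⟩
theorem tv_Z (v : Fin m → A) (a : A) : E σ v 0 a ∈ Z σ v := subset_closure ⟨a, rfl⟩
theorem Z_le_Q : Z σ v ≤ Q σ v := (closure_le _).2 fun _ ⟨_, e⟩ => e ▸ E_Q _ _ _
theorem mem_Q (s : Iv σ) (h : hf σ v v = 0) : g ∈ Q σ v ↔ ∃ n ζ, Ok σ v n ζ ∧ g = E σ v n ζ := by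
  refine ⟨fun k => ?_, fun ⟨_, _, _, e⟩ => e ▸ E_Q _ _ _⟩
  have o : ∃ n ζ, Ok σ v n ζ ∧ 1 = E σ v n ζ := ⟨0, 0, ok_tv s h (map_zero _), (E_zero v).symm⟩
  induction k using closure_induction with
  | mem _ e =>
    obtain ⟨n, ζ, rfl⟩ := e
    by_cases k : Ok σ v n ζ
    exacts [⟨_, _, k, rfl⟩, E_junk k ▸ o]
  | one => exact o
  | mul a b _ _ p q => obtain ⟨_, _, p, rfl⟩ := p; obtain ⟨_, _, q, rfl⟩ := q; exact ⟨_, _, p.mul q, E_mul p q⟩
  | inv a _ p => obtain ⟨_, _, p, rfl⟩ := p; exact ⟨_, _, p.inv, E_inv p⟩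
theorem mem_Z (s : Iv σ) (h : hf σ v v = 0) : g ∈ Z σ v ↔ ∃ a, σ a = a ∧ g = E σ v 0 a := by
  refine ⟨fun k => ?_, fun ⟨_, _, e⟩ => e ▸ tv_Z _ _⟩
  have o : ∃ a, σ a = a ∧ 1 = E σ v 0 a := ⟨0, map_zero _, (E_zero v).symm⟩
  induction k using closure_induction with
  | mem _ e =>
    obtain ⟨a, rfl⟩ := e
    by_cases k : Ok σ v 0 a
    exacts [⟨_, k.fix, rfl⟩, E_junk k ▸ o]
  | one => exact o
  | mul a b _ _ p q => obtain ⟨_, p, rfl⟩ := p; obtain ⟨_, q, rfl⟩ := q; exact ⟨_, by simp [p, q], tv_mul s h p q⟩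
  | inv a _ p => obtain ⟨_, p, rfl⟩ := p; exact ⟨_, p, by rw [E_inv (ok_tv s h p), p]⟩
theorem SU_iso (s : Iv σ) {H : Subgroup (Perm (Fin m → A))} (h : ∀ v a, hf σ v v = 0 → σ a = a → E σ v 0 a ∈ H) : SU σ m ≤ H :=
  (closure_le _).2 fun _ ⟨v, a, e⟩ => e ▸ by
    by_cases k : Ok σ v 0 a
    exacts [h v a k.vv k.fix, E_junk k ▸ one_mem H]

end ring

section up
variable {P X : Type*} [Group P] [Group X] {H B : Subgroup P} {φ : H →* X} {g k : P} {x : X}

open Classical in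
/-- a homomorphism of a subgroup as a function on the ambient group -/
noncomputable def up (φ : H →* X) (g : P) : X := if h : g ∈ H then φ ⟨g, h⟩ else 1

/-- the image of `B ⊓ H` -/
def im (φ : H →* X) (B : Subgroup P) : Subgroup X := (B.subgroupOf H).map φ

theorem up_eq (h : g ∈ H) : up φ g = φ ⟨g, h⟩ := dif_pos h
theorem up_coe (g : H) : up φ g = φ g := dif_pos g.2
@[simp] theorem up_one : up φ 1 = 1 := by rw [up_eq (one_mem H)]; exact φ.map_one
theorem up_mul (a : g ∈ H) (b : k ∈ H) : up φ (g * k) = up φ g * up φ k := by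
  rw [up_eq a, up_eq b, up_eq (mul_mem a b), ← map_mul]; rfl
theorem up_inv (a : g ∈ H) : up φ g⁻¹ = (up φ g)⁻¹ := by rw [up_eq a, up_eq (inv_mem a), ← map_inv]; rfl
theorem up_cj (a : g ∈ H) (b : k ∈ H) : up φ (g * k * g⁻¹) = up φ g * up φ k * (up φ g)⁻¹ := by
  rw [up_mul (mul_mem a b) (inv_mem a), up_mul a b, up_inv a]
theorem up_comm (a : g ∈ H) (b : k ∈ H) : up φ ⁅g, k⁆ = ⁅up φ g, up φ k⁆ := by
  rw [commutatorElement_def, up_mul (mul_mem (mul_mem a b) (inv_mem a)) (inv_mem b), up_cj a b, up_inv b]; rfl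
theorem up_range (g : P) : up φ g ∈ φ.range := by
  by_cases h : g ∈ H
  exacts [⟨_, (up_eq h).symm⟩, by rw [up, dif_neg h]; exact one_mem _]
theorem mem_range_up : x ∈ φ.range ↔ ∃ g ∈ H, up φ g = x := ⟨fun ⟨g, e⟩ => ⟨g, g.2, (up_coe g).trans e⟩, fun ⟨_, _, e⟩ => e ▸ up_range _⟩
theorem mem_im : x ∈ im φ B ↔ ∃ g ∈ B, g ∈ H ∧ up φ g = x :=
  ⟨fun ⟨g, a, e⟩ => ⟨g, a, g.2, (up_coe g).trans e⟩, fun ⟨g, a, b, e⟩ => ⟨⟨g, b⟩, a, (up_eq b).symm.trans e⟩⟩
theorem up_im (a : g ∈ B) (b : g ∈ H) : up φ g ∈ im φ B := mem_im.2 ⟨g, a, b, rfl⟩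
theorem im_le : im φ B ≤ φ.range := map_le_range _ _
theorem up_comp {X' : Type*} [Group X'] (f : X →* X') (g : P) : up (f.comp φ) g = f (up φ g) := by
  by_cases h : g ∈ H
  · rw [up_eq h, up_eq h]; rfl
  · simp [up, h]

end up

section dbl
variable {K : Type} [Field K] {m : ℕ}

/-- the doubled coefficient ring -/
abbrev KK (k : K) : Type := QuadraticAlgebra K k 1

instance (k : K) [CharP K 2] : CharP (KK k) 2 := charP_of_injective_algebraMap QuadraticAlgebra.C_injective 2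

/-- the generator -/
def om (k : K) : KK k := ⟨0, 1⟩

variable [CharP K 2] {k μ μ' : K} {σ θ θ' : K ≃+* K} {ξ ξ' g : Perm (Fin m → K)}

/-- extension of a field automorphism, `ω ↦ ω + μ` -/
def hat (θ : K ≃+* K) (μ : K) (h : μ * μ + μ + k + θ k = 0) : KK k ≃+* KK k where
  toFun c := ⟨θ c.re + μ * θ c.im, θ c.im⟩
  invFun c := ⟨θ.symm (c.re - μ * c.im), θ.symm c.im⟩
  left_inv c := by simp
  right_inv c := by simp
  map_mul' c d := by ext <;> simp <;> grind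
  map_add' c d := by ext <;> simp; ring

/-- the extended involution -/
def sh (σ : K ≃+* K) (h : σ k = k) : KK k ≃+* KK k := hat σ 0 (by simp [h, CharTwo.add_self_eq_zero])

/-- vectors from real and imaginary parts -/
def mkv (k : K) (x y : Fin m → K) : Fin m → KK k := fun i => ⟨x i, y i⟩

/-- extension of a semilinear map -/
def ext (k μ : K) (ξ : Perm (Fin m → K)) : Perm (Fin m → KK k) where
  toFun z := mkv k (ξ (fun i => (z i).re) + μ • ξ fun i => (z i).im) (ξ fun i => (z i).im)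
  invFun z := mkv k (ξ⁻¹ ((fun i => (z i).re) - μ • fun i => (z i).im)) (ξ⁻¹ fun i => (z i).im)
  left_inv z := by
    have : ∀ a b : Fin m → K, ((fun i => (mkv k (a + μ • b) b i).re) - μ • fun i => (mkv k (a + μ • b) b i).im) = a :=
      fun a b => by ext; simp [mkv]
    simp only [this]; ext <;> simp [mkv]
  right_inv z := by ext <;> simp [mkv]

theorem exists_mkv (z : Fin m → KK k) : ∃ x y, z = mkv k x y := ⟨fun i => (z i).re, fun i => (z i).im, rfl⟩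
theorem ext_ap (x y : Fin m → K) : ext k μ ξ (mkv k x y) = mkv k (ξ x + μ • ξ y) (ξ y) := rfl
theorem mkv_inj {x y x' y' : Fin m → K} : mkv k x y = mkv k x' y' ↔ x = x' ∧ y = y' :=
  ⟨fun e => ⟨funext fun i => congrArg (·.re) (congrFun e i), funext fun i => congrArg (·.im) (congrFun e i)⟩,
    fun ⟨a, b⟩ => a ▸ b ▸ rfl⟩
theorem mkv_add (x y x' y' : Fin m → K) : mkv k x y + mkv k x' y' = mkv k (x + x') (y + y') := rfl
theorem mkv_zero : mkv k (0 : Fin m → K) 0 = 0 := rfl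
theorem mkv_smul (a b : K) (x y : Fin m → K) :
    (⟨a, b⟩ : KK k) • mkv k x y = mkv k (a • x + (k * b) • y) (a • y + b • x + b • y) := by
  ext <;> simp [mkv]
theorem hf_mkv (h : σ k = k) (x y x' y' : Fin m → K) : hf (sh σ h) (mkv k x y) (mkv k x' y') =
    ⟨hf σ x x' + k * hf σ y y', hf σ x y' + hf σ y x' + hf σ y y'⟩ := by
  have r := map_sum (QuadraticAlgebra.reₗ k (1 : K)) (fun i => mkv k x y i * sh σ h (mkv k x' y' i.rev)) Finset.univ
  have s := map_sum (QuadraticAlgebra.imₗ k (1 : K)) (fun i => mkv k x y i * sh σ h (mkv k x' y' i.rev)) Finset.univ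
  ext
  · refine r.trans ?_; simp [hf, mkv, sh, hat, Finset.sum_add_distrib, Finset.mul_sum, mul_assoc]
  · refine s.trans ?_; simp [hf, mkv, sh, hat, Finset.sum_add_distrib]
theorem sh_ap (h : σ k = k) (a b : K) : sh σ h ⟨a, b⟩ = ⟨σ a, σ b⟩ := by simp [sh, hat]
theorem hat_ap (h : μ * μ + μ + k + θ k = 0) (a b : K) : hat θ μ h ⟨a, b⟩ = ⟨θ a + μ * θ b, θ b⟩ := rfl
theorem iv_sh (s : Iv σ) (h : σ k = k) : Iv (sh σ h) := fun ⟨a, b⟩ => by rw [sh_ap, sh_ap, s, s]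
theorem sh_om (h : σ k = k) : sh σ h (om k) = om k := by simp [om, sh_ap]
theorem Sem.ext (s : Sem σ θ ξ) (hk : σ k = k) (e : σ μ = μ) (h : μ * μ + μ + k + θ k = 0) :
    Sem (sh σ hk) (hat θ μ h) (ext k μ ξ) := by
  refine ⟨fun x y => ?_, fun ⟨a, b⟩ x => ?_, fun x y => ?_, fun ⟨a, b⟩ => ?_⟩
  · obtain ⟨_, _, rfl⟩ := exists_mkv x; obtain ⟨_, _, rfl⟩ := exists_mkv y
    simp only [mkv_add, ext_ap, s.add, mkv_inj, and_true]; module
  · obtain ⟨_, _, rfl⟩ := exists_mkv x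
    simp only [mkv_smul, ext_ap, s.add, s.smul, hat_ap, mkv_inj, map_mul]
    constructor <;> ext <;> simp <;> grind
  · obtain ⟨_, _, rfl⟩ := exists_mkv x; obtain ⟨_, _, rfl⟩ := exists_mkv y
    simp only [ext_ap, hf_mkv, hat_ap, hf_add_l, hf_add_r, hf_smul_l, hf_smul_r, s.form, e, map_add, map_mul]
    ext <;> simp <;> grind
  · simp [sh_ap, hat_ap, e, s.com]
theorem hat_one (h : 0 * 0 + 0 + k + (1 : K ≃+* K) k = 0) : hat 1 0 h = 1 := RingEquiv.ext fun ⟨a, b⟩ => by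
  rw [hat_ap]; simp
theorem Sem.ext1 (s : Sem σ 1 ξ) (hk : σ k = k) : Sem (sh σ hk) 1 (U5.ext k 0 ξ) :=
  hat_one (k := k) (by simp [CharTwo.add_self_eq_zero]) ▸ s.ext hk (map_zero _) _
theorem ext_mul (s : Sem σ θ ξ) (μ μ' : K) (ξ' : Perm (Fin m → K)) : ext k μ ξ * ext k μ' ξ' = ext k (μ + θ μ') (ξ * ξ') :=
  Equiv.ext fun x => by
    obtain ⟨_, _, rfl⟩ := exists_mkv x
    simp only [Perm.mul_apply, ext_ap, s.add, s.smul, mkv_inj, and_true]; module
theorem ext_one : ext k 0 (1 : Perm (Fin m → K)) = 1 := Equiv.ext fun x => by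
  obtain ⟨_, _, rfl⟩ := exists_mkv x; simp [ext_ap]
theorem ext_E (hk : σ k = k) {v n : Fin m → K} {ζ : K} (h : Ok σ v n ζ) :
    Ok (sh σ hk) (mkv k v 0) (mkv k n 0) ⟨ζ, 0⟩ ∧ ext k 0 (E σ v n ζ) = E (sh σ hk) (mkv k v 0) (mkv k n 0) ⟨ζ, 0⟩ := by
  have o : Ok (sh σ hk) (mkv k v 0) (mkv k n 0) ⟨ζ, 0⟩ := ⟨iv_sh h.iv hk, by ext <;> simp [hf_mkv, h.vv],
    by ext <;> simp [hf_mkv, h.nv], by ext <;> simp [hf_mkv, sh_ap, h.tr]⟩
  refine ⟨o, Equiv.ext fun x => ?_⟩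
  obtain ⟨_, _, rfl⟩ := exists_mkv x
  rw [E_ap o, ext_ap, E_ap h, E_ap h]; ext <;> simp [hf_mkv, mkv]

end dbl

end CF.U5
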