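import Cfsg.Agent.U5.B1

/-! Geometry of the unitary space, first part. -/

set_option autoImplicit false
set_option linter.unusedSectionVars false
set_option linter.unusedVariables false

namespace CF.U5

open Subgroup Equiv CF.Geom Module CF.Loc CF.LX
open scoped commutatorElement

/-- a `2`-group of additive maps has a fixed point on each section -/
theorem fixq {V : Type*} [AddCommGroup V] [Finite V] (h2 : ∀ x : V, x + x = 0) {P : Subgroup (Perm V)} (two : IsPGroup 2 P)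
    (add : ∀ p ∈ P, ∀ x y, p (x + y) = p x + p y) {A B : AddSubgroup V} (hA : ∀ p ∈ P, ∀ x ∈ A, p x ∈ A)
    (hB : ∀ p ∈ P, ∀ x ∈ B, p x ∈ B) {b : V} (hb : b ∈ B) (hb' : b ∉ A) : ∃ x ∈ B, x ∉ A ∧ ∀ p ∈ P, p x - x ∈ A := by
  let f : P → V ⧸ A →+ V ⧸ A := fun p => QuotientAddGroup.map A A (AddMonoidHom.mk' p.1 (add p p.2)) (hA p p.2)
  letI : MulAction P (B.map (QuotientAddGroup.mk' A)) :=
    { smul := fun p c => ⟨f p c, by obtain ⟨_, x, hx, rfl⟩ := c; exact ⟨_, hB p p.2 x hx, rfl⟩⟩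
      one_smul := by rintro ⟨_, x, hx, rfl⟩; rfl
      mul_smul := by rintro p p' ⟨_, x, hx, rfl⟩; rfl }
  have : 2 ∣ Nat.card (B.map (QuotientAddGroup.mk' A)) := by
    rw [← addOrderOf_eq_prime (p := 2) (x := (⟨_, b, hb, rfl⟩ : B.map (QuotientAddGroup.mk' A)))
      (Subtype.ext (by simp [two_smul, ← QuotientAddGroup.mk_add, h2])) (fun e => hb' (by simpa using congrArg Subtype.val e))]
    exact addOrderOf_dvd_natCard _
  obtain ⟨⟨_, x, hx, rfl⟩, e, n⟩ := two.exists_fixed_point_of_prime_dvd_card_of_fixed_point _ this (a := 0)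
    fun p => Subtype.ext (map_zero (f p))
  exact ⟨x, hx, fun k => n (Subtype.ext ((QuotientAddGroup.eq_zero_iff x).2 k).symm), fun p hp =>
    QuotientAddGroup.eq_iff_sub_mem.1 (congrArg Subtype.val (e ⟨p, hp⟩))⟩

variable {K : Type} [Field K] [Fintype K] [CharP K 2] {m q : ℕ} {σ θ : K ≃+* K} {a b c : K}
  {g p ξ : Perm (Fin m → K)} {u v w x y e n u' v' : Fin m → K} {T T' S : Submodule K (Fin m → K)}
  {H P : Subgroup (Perm (Fin m → K))}

theorem fixs (two : IsPGroup 2 P) (l : P ≤ Gam σ m) (hA : ∀ p ∈ P, ∀ x ∈ T, p x ∈ T) (hB : ∀ p ∈ P, ∀ x ∈ T', p x ∈ T')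
    (h : ¬ T' ≤ T) : ∃ x ∈ T', x ∉ T ∧ ∀ p ∈ P, p x - x ∈ T := by
  obtain ⟨b, hb, hb'⟩ := SetLike.not_le_iff_exists.1 h
  exact fixq vv two (fun p h => (l h).choose_spec.add) (A := T.toAddSubgroup) (B := T'.toAddSubgroup) hA hB hb hb'
theorem hf_sum_l {ι : Type*} (s : Finset ι) (f : ι → Fin m → K) (y : Fin m → K) : hf σ (∑ i ∈ s, f i) y = ∑ i ∈ s, hf σ (f i) y :=
  map_sum (sq σ m y) f _
theorem hf_sum_r {ι : Type*} (s : Finset ι) (f : ι → Fin m → K) (y : Fin m → K) : hf σ y (∑ i ∈ s, f i) = ∑ i ∈ s, hf σ y (f i) :=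
  map_sum ((sq σ m).flip y) f _
theorem Sem.sum (h : Sem σ θ ξ) {ι : Type*} (s : Finset ι) (f : ι → Fin m → K) : ξ (∑ i ∈ s, f i) = ∑ i ∈ s, ξ (f i) :=
  map_sum (AddMonoidHom.mk' ξ h.add) f s
theorem Sem.sub (h : Sem σ θ ξ) (x y : Fin m → K) : ξ (x - y) = ξ x - ξ y := map_sub (AddMonoidHom.mk' ξ h.add) x y
theorem Sem.ne (h : Sem σ θ ξ) (x0 : x ≠ 0) : ξ x ≠ 0 := fun e => x0 (ξ.injective (e.trans h.zero.symm))
theorem li_bv {j : ℕ} (h : j ≤ m) : LinearIndependent K fun i : Fin j => (bv i.val : Fin m → K) := by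
  have := (Pi.basisFun K (Fin m)).linearIndependent.comp (Fin.castLE h) (Fin.castLE_injective h)
  convert this using 1; ext i; simp [bv, Pi.single_apply, Fin.ext_iff]
theorem Vf_span {j : ℕ} (h : j ≤ m) : Vf K m j = Submodule.span K (Set.range fun i : Fin j => (bv i.val : Fin m → K)) := by
  refine le_antisymm (fun x hx => ?_) (Submodule.span_le.2 (by rintro _ ⟨i, rfl⟩; exact bv_mem i.2))
  rw [← sum_bv x]
  refine Submodule.sum_mem _ fun i _ => ?_
  by_cases e : j ≤ i.val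
  · simp [hx i e]
  · exact Submodule.smul_mem _ _ (Submodule.subset_span ⟨⟨i, by omega⟩, rfl⟩)
theorem Vf_dim {j : ℕ} (h : j ≤ m) : finrank K (Vf K m j) = j := by rw [Vf_span h, finrank_span_eq_card (li_bv h), Fintype.card_fin]
theorem Vf_ti {j : ℕ} (h : j ≤ m / 2) : Ti σ (Vf K m j) := fun _ a _ b => hf_Vf a b (by omega)
theorem Vf_pp {i j : ℕ} (h : i + j = m) : pp σ (Vf K m i) = Vf K m j :=
  le_antisymm (fun x a k l => (hf_bv x k).symm.trans (a _ (bv_mem (by rw [Fin.val_rev]; omega))))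
    fun x a y b => hf_Vf a b (by omega)
theorem Vf_top : x ∈ Vf K m m := fun i h => absurd i.2 (by omega)
theorem Vf_zero : x ∈ Vf K m 0 ↔ x = 0 := ⟨fun h => funext fun i => h i (by omega), fun h => h ▸ zero_mem _⟩
theorem Vf_succ {j : ℕ} (h : x ∈ Vf K m (j + 1)) : ∃ c : K, x - c • bv j ∈ Vf K m j := by
  by_cases e : j < m
  · refine ⟨x ⟨j, e⟩, fun i l => ?_⟩
    by_cases k : i.val = j
    · subst k; simp [bv]
    · simp [bv, k, h i (by omega)]
  · exact ⟨0, fun i l => by omega⟩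
theorem Vf_one : x ∈ Vf K m 1 ↔ ∃ c : K, x = c • bv 0 :=
  ⟨fun h => (Vf_succ h).imp fun _ e => sub_eq_zero.1 (Vf_zero.1 e), fun ⟨_, e⟩ => e ▸ Submodule.smul_mem _ _ (bv_mem one_pos)⟩
theorem li_two (u0 : u ≠ 0) (h : w ∉ Submodule.span K {u}) : LinearIndependent K ![u, w] :=
  (LinearIndependent.pair_iff' u0).2 fun a e => h (Submodule.mem_span_singleton.2 ⟨a, e⟩)
theorem li_eq (h : LinearIndependent K ![u, v]) {a b a' b' : K} (e : a • u + b • v = a' • u + b' • v) : a = a' ∧ b = b' := by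
  simpa [sub_eq_zero] using LinearIndependent.pair_iff.1 h (a - a') (b - b') (by linear_combination (norm := module) e)
theorem span_dim {r : ℕ} (u : Fin r → Fin m → K) : finrank K (Submodule.span K (Set.range u)) ≤ r :=
  (finrank_range_le_card u).trans (Fintype.card_fin r).le
theorem pair_dim (u v : Fin m → K) : finrank K (Submodule.span K {u, v}) ≤ 2 := by
  rw [← Matrix.range_cons_cons_empty u v ![]]; exact span_dim _

variable (σ) in
/-- independent orthogonal isotropic pairs -/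
structure Ip (u v : Fin m → K) : Prop where
  uu : hf σ u u = 0
  vv : hf σ v v = 0
  uv : hf σ u v = 0
  vu : hf σ v u = 0
  li : LinearIndependent K ![u, v]

theorem Ip.symm (h : Ip σ u v) : Ip σ v u := ⟨h.vv, h.uu, h.vu, h.uv, LinearIndependent.pair_symm_iff.1 h.li⟩
theorem Ip.comb {a' b' : K} (h : Ip σ u v) (e : a * b' ≠ a' * b) : Ip σ (a • u + b • v) (a' • u + b' • v) :=
  ⟨by simp [h.1, h.2, h.3, h.4], by simp [h.1, h.2, h.3, h.4], by simp [h.1, h.2, h.3, h.4], by simp [h.1, h.2, h.3, h.4],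
    LinearIndependent.pair_iff.2 fun s t f => by
      have := li_eq h.li (a := s * a + t * a') (b := s * b + t * b') (a' := 0) (b' := 0) (by rw [zero_smul, zero_smul, add_zero, ← f]; module)
      grind⟩
theorem Ip.cj (h : Ip σ u v) (s : Sem σ 1 g) : Ip σ (g u) (g v) :=
  ⟨(s.form1 ..).trans h.1, (s.form1 ..).trans h.2, (s.form1 ..).trans h.3, (s.form1 ..).trans h.4,
    LinearIndependent.pair_iff.2 fun a b f => LinearIndependent.pair_iff.1 h.li a b (g.injective (by rw [s.add, s.smul1, s.smul1, f, s.zero]))⟩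
theorem Ip.u0 (h : Ip σ u v) : u ≠ 0 := h.li.ne_zero 0
theorem Ip.ti (h : Ip σ u v) : Ti σ (Submodule.span K {u, v}) := fun x i z j => by
  obtain ⟨_, _, rfl⟩ := Submodule.mem_span_pair.1 i; obtain ⟨_, _, rfl⟩ := Submodule.mem_span_pair.1 j; simp [h.1, h.2, h.3, h.4]
theorem mem_l (u v : Fin m → K) : u ∈ Submodule.span K {u, v} := Submodule.subset_span (by simp)
theorem mem_r (u v : Fin m → K) : v ∈ Submodule.span K {u, v} := Submodule.subset_span (by simp)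

theorem nip_self : ¬ Ip σ v v := fun h => one_ne_zero (LinearIndependent.pair_iff.1 h.li 1 1 (by simp [vv])).1
theorem nip_ne (e : hf σ u v ≠ 0) : ¬ Ip σ u v := fun h => e h.uv
theorem nip_ne' (e : hf σ v u ≠ 0) : ¬ Ip σ u v := fun h => e h.vu
theorem nip_l (e : hf σ u u ≠ 0) : ¬ Ip σ u v := fun h => e h.uu
theorem nip_r (e : hf σ v v ≠ 0) : ¬ Ip σ u v := fun h => e h.vv
theorem nip_sm (c : K) : ¬ Ip σ (c • v) v := fun h => one_ne_zero (LinearIndependent.pair_iff.1 h.li 1 c (by simp [vv])).1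
theorem nip_sm' (c : K) : ¬ Ip σ v (c • v) := fun h => nip_sm c h.symm
theorem li_dim (h : finrank K (Submodule.span K {u, v}) = 2) : LinearIndependent K ![u, v] :=
  linearIndependent_iff_card_eq_finrank_span.2 (by rw [Set.finrank, Matrix.range_cons_cons_empty u v ![], h]; simp)
theorem dim_li (h : LinearIndependent K ![u, v]) : finrank K (Submodule.span K {u, v}) = 2 := by
  have := linearIndependent_iff_card_eq_finrank_span.1 h
  rw [Set.finrank, Matrix.range_cons_cons_empty u v ![]] at this; simpa using this.symm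

namespace Fd
variable (d : Fd σ q)
include d
theorem dual {ι : Type*} [Fintype ι] {u : ι → Fin m → K} (hu : LinearIndependent K u) (c : ι → K) : ∃ n, ∀ i, hf σ (u i) n = c i := by
  classical
  choose y h k using fun i => d.part (hu.notMem_span_image (s := {i}ᶜ) (x := i) (by simp))
  refine ⟨∑ i, σ (c i) • y i, fun j => ?_⟩
  rw [hf_sum_r, Finset.sum_eq_single j (fun i _ n => by rw [hf_smul_r, d.sw (k i _ (Submodule.subset_span ⟨j, n.symm, rfl⟩)), mul_zero])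
    (by simp), hf_smul_r, d.iv, ← d.sy, h, map_one, mul_one]
theorem dual_iso {ι : Type*} [Fintype ι] {u : ι → Fin m → K} (hu : LinearIndependent K u) (e : ∀ i j, hf σ (u i) (u j) = 0)
    (c : ι → K) : ∃ n, hf σ n n = 0 ∧ ∀ i, hf σ (u i) n = c i := by
  by_cases z : ∀ i, c i = 0
  · exact ⟨0, by simp, by simp [z]⟩
  obtain ⟨i, z⟩ := not_forall.1 z
  obtain ⟨n, h⟩ := d.dual hu c
  obtain ⟨b, k⟩ := d.trc (d.sy n n)
  refine ⟨n + (b / c i) • u i, ?_, fun j => by simp [h, e]⟩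
  have : σ (c i) ≠ 0 := by simpa using z
  simp only [hf_add_l, hf_add_r, hf_smul_l, hf_smul_r, e, h, ← d.sy (u i) n, map_div₀, ← k]; field_simp; grind
theorem iso_out (h : finrank K ↥(S ⊓ pp σ S) + finrank K S + 2 ≤ m) : ∃ w, w ∉ S ∧ hf σ w w = 0 ∧ ∀ z ∈ S, hf σ w z = 0 := by
  obtain ⟨C, c⟩ := Submodule.exists_isCompl (S ⊓ pp σ S)
  have h1 := Submodule.finrank_add_eq_of_isCompl c
  have h2 := Submodule.finrank_sup_add_finrank_inf_eq C (pp σ S)
  have h3 := (C ⊔ pp σ S).finrank_le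
  have h4 := d.pp_dim S
  rw [finrank_V] at h1 h3
  obtain ⟨w, ⟨a, b⟩, w0, i⟩ := d.iso_mem (T := C ⊓ pp σ S) (by omega)
  exact ⟨w, fun k => w0 (Submodule.disjoint_def.1 c.disjoint w ⟨k, b⟩ a), i, b⟩
theorem hyp_out (h : finrank K ↥(S ⊓ pp σ S) + finrank K S + 2 ≤ m) (c : K) : ∃ w w', w ∉ S ∧ hf σ w w = 0 ∧ hf σ w' w' = 0 ∧
    (∀ z ∈ S, hf σ w z = 0) ∧ (∀ z ∈ S, hf σ w' z = 0) ∧ hf σ w w' = c := by
  obtain ⟨w, a, b, e⟩ := d.iso_out h
  obtain ⟨y, k, l, n⟩ := d.part_iso a b e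
  exact ⟨w, σ c • y, a, b, by simp [k], e, fun z i => by simp [n z i], by rw [hf_smul_r, d.iv, ← d.sy, l, map_one, mul_one]⟩
theorem partner (hv : hf σ v v = 0) (v0 : v ≠ 0) : ∃ y, hf σ y y = 0 ∧ hf σ y v = 1 ∧ hf σ v y = 1 := by
  obtain ⟨y, a, b, -⟩ := d.part_iso (T := ⊥) v0 hv (by simp)
  exact ⟨y, a, b, by rw [← d.sy, b, map_one]⟩
theorem perp_perp1 (h : ∀ y, hf σ y v = 0 → hf σ x y = 0) : ∃ c : K, x = c • v := by
  obtain ⟨c, e⟩ := Submodule.mem_span_singleton.1 (d.mem_of_pp (T := Submodule.span K {v}) fun y k =>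
    h y (k v (Submodule.mem_span_singleton_self v)))
  exact ⟨c, e.symm⟩
end Fd

namespace Dm
variable (d : Dm σ q m)
include d
theorem dual {r : ℕ} {u : Fin r → Fin m → K} (hu : LinearIndependent K u) (c : Fin r → K) : ∃ n, ∀ i, hf σ (u i) n = c i :=
  d.toFd.dual hu c
theorem dual_iso {r : ℕ} {u : Fin r → Fin m → K} (hu : LinearIndependent K u) (e : ∀ i j, hf σ (u i) (u j) = 0) (c : Fin r → K) :
    ∃ n, hf σ n n = 0 ∧ ∀ i, hf σ (u i) n = c i := d.toFd.dual_iso hu e c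
theorem hyp (u v : Fin m → K) (c : K) (ni : ¬ Ip σ u v) : ∃ w w', w ∉ Submodule.span K {u, v} ∧ hf σ w w = 0 ∧ hf σ w' w' = 0 ∧
    hf σ w u = 0 ∧ hf σ w v = 0 ∧ hf σ w' u = 0 ∧ hf σ w' v = 0 ∧ hf σ w w' = c := by
  have := pair_dim u v
  have := Submodule.finrank_mono (inf_le_left : Submodule.span K {u, v} ⊓ pp σ (Submodule.span K {u, v}) ≤ _)
  have h3 : finrank K ↥(Submodule.span K {u, v} ⊓ pp σ (Submodule.span K {u, v})) + finrank K (Submodule.span K {u, v}) ≤ 3 := by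
    by_contra h
    have l := inf_eq_left.1 (Submodule.eq_of_le_of_finrank_eq
      (inf_le_left : Submodule.span K {u, v} ⊓ pp σ (Submodule.span K {u, v}) ≤ _) (by omega))
    exact ni ⟨mem_pp.1 (l (mem_l u v)) _ (mem_l u v), mem_pp.1 (l (mem_r u v)) _ (mem_r u v), mem_pp.1 (l (mem_l u v)) _ (mem_r u v),
      mem_pp.1 (l (mem_r u v)) _ (mem_l u v), li_dim (by omega)⟩
  obtain ⟨w, w', a, b, c, e, f, k⟩ := d.hyp_out (S := Submodule.span K {u, v}) (by have := d.hm; omega) c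
  exact ⟨w, w', a, b, c, e _ (Submodule.subset_span (by simp)), e _ (Submodule.subset_span (by simp)),
    f _ (Submodule.subset_span (by simp)), f _ (Submodule.subset_span (by simp)), k⟩
theorem exists_hyp (v : Fin m → K) (c : K) : ∃ w w', hf σ w w = 0 ∧ hf σ w' w' = 0 ∧ hf σ w v = 0 ∧ hf σ w' v = 0 ∧ hf σ w w' = c :=
  let ⟨w, w', _, a, b, e, _, f, _, h⟩ := d.hyp v v c nip_self; ⟨w, w', a, b, e, f, h⟩
theorem out (u v : Fin m → K) (ni : ¬ Ip σ u v) : ∃ w, w ∉ Submodule.span K {u, v} ∧ hf σ w w = 0 ∧ hf σ w u = 0 ∧ hf σ w v = 0 :=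
  let ⟨w, _, a, b, _, c, e, _⟩ := d.hyp u v 0 ni; ⟨w, a, b, c, e⟩
theorem out' (u0 : u ≠ 0) (v0 : v ≠ 0) : ∃ w, LinearIndependent K ![u, w] ∧ LinearIndependent K ![v, w] ∧
    hf σ w w = 0 ∧ hf σ w u = 0 ∧ hf σ w v = 0 := by
  by_cases h : Ip σ u v
  · have h1 := h.comb (a := 1) (b := 0) (a' := 1) (b' := 1) (by simp)
    have h2 := h.comb (a := 0) (b := 1) (a' := 1) (b' := 1) (by simp)
    simp only [one_smul, zero_smul, add_zero, zero_add] at h1 h2
    exact ⟨u + v, h1.li, h2.li, h1.vv, h1.vu, h2.vu⟩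
  obtain ⟨w, a, b⟩ := d.out u v h
  exact ⟨w, li_two u0 fun k => a (Submodule.span_mono (by simp) k), li_two v0 fun k => a (Submodule.span_mono (by simp) k), b⟩
theorem exists_perp (u v : Fin m → K) : ∃ w, w ≠ 0 ∧ hf σ w w = 0 ∧ hf σ u w = 0 ∧ hf σ v w = 0 := by
  have := pair_dim u v
  have := d.pp_dim (Submodule.span K {u, v})
  obtain ⟨w, a, b, c⟩ := d.iso_mem (T := pp σ (Submodule.span K {u, v})) (by have := d.hm; omega)
  exact ⟨w, b, c, d.sw (a _ (mem_l u v)), d.sw (a _ (mem_r u v))⟩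
theorem span_iso' (ni : ¬ Ip σ u v) {p : (Fin m → K) → Prop} (add : ∀ x y, p x → p y → p (x + y))
    (iso : ∀ x, hf σ x x = 0 → hf σ x u = 0 → hf σ x v = 0 → p x) (hx : hf σ x u = 0) (hx' : hf σ x v = 0) : p x := by
  obtain ⟨b, k⟩ := d.trc (d.sy x x)
  have key : ∀ x w, hf σ x u = 0 → hf σ x v = 0 → hf σ w w = 0 → hf σ w u = 0 → hf σ w v = 0 → hf σ w x ≠ 0 → p x :=
    fun x w hx hx' i a c z => by
    obtain ⟨b, k⟩ := d.trc (d.sy x x)
    have := add _ _ (iso (x + (b / hf σ w x) • w) ?_ (by simp [*]) (by simp [*])) (iso ((b / hf σ w x) • w) (by simp [*])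
      (by simp [*]) (by simp [*]))
    · rwa [add_assoc, vv, add_zero] at this
    have : σ (hf σ w x) ≠ 0 := by simpa using z
    simp only [hf_add_l, hf_add_r, hf_smul_l, hf_smul_r, i, ← d.sy w x, map_div₀, ← k]; field_simp; grind
  obtain ⟨w, w', -, i, i', a, b, a', b', e⟩ := d.hyp u v 1 ni
  by_cases z : hf σ w x = 0
  · have := add _ _ (key (x + w') w (by simp [*]) (by simp [*]) i a b (by simp [*])) (iso w' i' a' b')
    rwa [add_assoc, vv, add_zero] at this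
  · exact key x w hx hx' i a b z
theorem span_iso1 {p : (Fin m → K) → Prop} (add : ∀ x y, p x → p y → p (x + y))
    (iso : ∀ x, hf σ x x = 0 → hf σ x v = 0 → p x) (hx : hf σ x v = 0) : p x := d.span_iso' nip_self add (fun x a _ => iso x a) hx hx
theorem span_iso0 {p : (Fin m → K) → Prop} (add : ∀ x y, p x → p y → p (x + y)) (iso : ∀ x, hf σ x x = 0 → p x) (x : Fin m → K) :
    p x := d.span_iso1 (v := 0) add (fun x a _ => iso x a) (by simp)
theorem wittS {ι : Type*} {u v : ι → Fin m → K} (hu : LinearIndependent K u) (hv : LinearIndependent K v)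
    (f : ∀ i j, hf σ (u i) (u j) = hf σ (v i) (v j)) (he : hf σ e e ≠ 0) (k : ∀ i, hf σ (v i) e = 0) : ∃ g ∈ SU σ m, ∀ i, g (u i) = v i := by
  obtain ⟨g, a, b⟩ := d.toFd.witt0 hu hv f
  obtain ⟨r, -, l, n⟩ := d.fix_an a he
  exact ⟨r * g, n, fun i => by rw [Perm.mul_apply, b, l _ (k i)]⟩
theorem wittR {r : ℕ} {u v : Fin r → Fin m → K} (hr : r + m / 2 < m) (hu : LinearIndependent K u) (hv : LinearIndependent K v)
    (f : ∀ i j, hf σ (u i) (u j) = hf σ (v i) (v j)) : ∃ g ∈ SU σ m, ∀ i, g (u i) = v i := by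
  have := d.pp_dim (Submodule.span K (Set.range v))
  have := span_dim v
  obtain ⟨e, a, b⟩ := d.an_mem (T := pp σ (Submodule.span K (Set.range v))) (by omega)
  exact d.wittS hu hv f b fun i => d.sw (a _ (Submodule.subset_span ⟨i, rfl⟩))
theorem witt1 (hu : hf σ u u = 0) (u0 : u ≠ 0) (hv : hf σ v v = 0) (v0 : v ≠ 0) : ∃ g ∈ SU σ m, g u = v := by
  obtain ⟨g, a, b⟩ := d.wittR (u := ![u]) (v := ![v]) (by have := d.hm; omega) (by simpa) (by simpa) (by simp [*])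
  exact ⟨g, a, b 0⟩
theorem witt2 (hu : LinearIndependent K ![u, u']) (hv : LinearIndependent K ![v, v']) (e : hf σ u u = hf σ v v)
    (e' : hf σ u' u' = hf σ v' v') (f : hf σ u u' = hf σ v v') : ∃ g ∈ SU σ m, g u = v ∧ g u' = v' := by
  obtain ⟨g, a, b⟩ := d.wittR (by have := d.hm; omega) hu hv (by simp [Fin.forall_fin_two, ← d.sy u u', ← d.sy v v', *])
  exact ⟨g, a, b 0, b 1⟩
theorem b00 : hf σ (bv 0 : Fin m → K) (bv 0) = 0 := hf_Vf (bv_mem one_pos) (bv_mem one_pos) (by have := d.hm; omega)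
theorem b0 : (bv 0 : Fin m → K) ≠ 0 := bv_ne (by have := d.hm; omega)
theorem bll : hf σ (bv (m - 1) : Fin m → K) (bv (m - 1)) = 0 := by have := d.hm; rw [hf_bb (by omega), if_neg (by omega)]
theorem b0l : hf σ (bv 0 : Fin m → K) (bv (m - 1)) = 1 := by have := d.hm; rw [hf_bb (by omega), if_pos (by omega)]
theorem bl0 : hf σ (bv (m - 1) : Fin m → K) (bv 0) = 1 := by have := d.hm; rw [hf_bb (by omega), if_pos (by omega)]
theorem wittX (l : Ti σ T) : ∃ g ∈ SU σ m, ∀ x, x ∈ T ↔ g x ∈ Vf K m (finrank K T) := by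
  have hm := d.hm
  have h := d.ti_le l
  obtain ⟨u, a, b, c⟩ := exists_li_mem T rfl
  obtain ⟨g, i, k⟩ := d.witt0 a (li_bv (m := m) (by omega)) fun i j => (l _ (b i) _ (b j)).trans
    (Vf_ti h _ (bv_mem i.2) _ (bv_mem j.2)).symm
  obtain ⟨r, -, c', -, f, r0, -, s⟩ := d.fix_hyp i d.b00 d.bll d.b0l
  have : T.map (lin (su_sem s)) = Vf K m (finrank K T) := by
    refine Submodule.eq_of_le_of_finrank_eq ?_ ?_
    · nth_rw 1 [← c]
      rw [Submodule.map_span, Submodule.span_le]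
      rintro _ ⟨_, ⟨j, rfl⟩, rfl⟩
      rw [lin_ap, Perm.mul_apply, k]
      by_cases z : j.val = 0
      · rw [z, r0]; exact Submodule.smul_mem _ _ (bv_mem (z ▸ j.2))
      · have := j.2
        rw [f _ (by rw [hf_bb (by omega), if_neg (by omega)]) (by rw [hf_bb (by omega), if_neg (by omega)])]; exact bv_mem j.2
    · rw [Vf_dim (by omega)]; exact ((T.equivMapOfInjective _ (r * g).injective).finrank_eq).symm
  refine ⟨_, s, fun x => ⟨fun h => this ▸ ⟨x, h, rfl⟩, fun h => ?_⟩⟩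
  obtain ⟨y, e, e'⟩ := this.ge h
  exact (r * g).injective e' ▸ e
theorem dil (hv : hf σ v v = 0) (hu : hf σ u u = 0) (f : hf σ u v = 1) (e : σ a = a) (a0 : a ≠ 0) : ∃ g ∈ SU σ m, g v = a • v ∧
    g u = a⁻¹ • u ∧ ∀ x, hf σ x v = 0 → hf σ x u = 0 → g x = x := by
  let r := uDil d.herm hv hu f (Units.mk0 a a0)
  refine ⟨pm σ m r, d.mem_SU.2 ⟨pm_sem r, ?_⟩, uDil_left d.herm hv hu f _,
    (uDil_right d.herm hv hu f _).trans (congrArg (·⁻¹ • u) e), fun x => uDil_of_perp d.herm hv hu f _⟩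
  rw [dt_pm, show LinearMap.det (r.1 : (Fin m → K) →ₗ[K] _) = _ from det_uDil d.herm hv hu f _]
  exact (congrArg (a * ·⁻¹) e).trans (mul_inv_cancel₀ a0)
theorem torus (hv : hf σ v v = 0) (v0 : v ≠ 0) (e : σ a = a) (a0 : a ≠ 0) (c : K) : ∃ g ∈ SU σ m, ∃ u w, g v = a • v ∧ g u = u ∧ g w = w ∧
    hf σ u u = 0 ∧ hf σ w w = 0 ∧ hf σ u v = 0 ∧ hf σ w v = 0 ∧ hf σ u w = c := by
  obtain ⟨y, i, j, -⟩ := d.partner hv v0
  obtain ⟨g, s, k, -, l⟩ := d.dil hv i j e a0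
  obtain ⟨w, w', -, h1, h2, h3, h4, h5, h6, h7⟩ := d.hyp v y c (nip_ne' (by simp [j]))
  exact ⟨g, s, w, w', k, l _ h3 h4, l _ h5 h6, h1, h2, h3, h5, h7⟩
/-- a semilinear isometry stabilising all isotropic points is scalar -/
theorem sc_iso (l : Sem σ θ ξ) (h : ∀ v, hf σ v v = 0 → ∃ c : K, ξ v = c • v) :
    θ = 1 ∧ ∃ c : K, c * σ c = 1 ∧ ∀ x, ξ x = c • x := by
  obtain ⟨c, e⟩ := h _ d.b00
  have k : ∀ u w (a b : K), LinearIndependent K ![u, w] → hf σ u u = 0 → hf σ w w = 0 → hf σ w u = 0 → ξ u = a • u → ξ w = b • w →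
      a = b := fun u w a b i p r s t t' => by
    obtain ⟨c, e⟩ := h (u + w) (by simp [d.sw s, *])
    rw [l.add, t, t', smul_add] at e
    exact (li_eq i e).1.trans (li_eq i e).2.symm
  have f : ∀ x, ξ x = c • x := d.span_iso0 (fun x y a b => by rw [l.add, a, b, smul_add]) fun v i => by
    by_cases z : v = 0
    · simp [z, l.zero]
    obtain ⟨w, h1, h2, h3, h4, h5⟩ := d.out' d.b0 z
    obtain ⟨a, s⟩ := h v i
    obtain ⟨b, t⟩ := h w h3
    rw [s, k _ _ _ _ h1 d.b00 h3 h4 e t, k _ _ _ _ h2 i h3 h5 s t]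
  have c0 : c ≠ 0 := fun z => l.ne d.b0 (by simp [f, z])
  have t : θ = 1 := RingEquiv.ext fun a => by
    have := l.smul a (bv 0)
    rw [f, f, smul_comm] at this
    exact (smul_left_injective K (smul_ne_zero c0 d.b0) this).symm
  subst t
  exact ⟨rfl, c, by simpa [f, d.b0l, mul_comm] using l.form1 (bv 0) (bv (m - 1)), f⟩
theorem tv_comm (hv : hf σ v v = 0) (e : σ a = a) (u : Fin m → K) (ni : ¬ Ip σ u v) : ∃ n n', hf σ n n = 0 ∧ hf σ n' n' = 0 ∧ hf σ n u = 0 ∧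
    hf σ n v = 0 ∧ hf σ n' u = 0 ∧ hf σ n' v = 0 ∧ E σ v 0 a = ⁅E σ v n 0, E σ v n' 0⁆ := by
  obtain ⟨c, k⟩ := d.trc e
  obtain ⟨w, w', -, h1, h2, h3, h4, h5, h6, h7⟩ := d.hyp u v c ni
  exact ⟨w, w', h1, h2, h3, h4, h5, h6, by rw [E_comm (ok_iso d.iv hv h1 h4) (ok_iso d.iv hv h2 h6), ← d.sy w w', h7, k]⟩
theorem su_perf : SU σ m ≤ ⁅SU σ m, SU σ m⁆ := SU_iso d.iv fun v a hv e => by
  obtain ⟨n, n', -, -, -, -, -, -, k⟩ := d.tv_comm hv e v nip_self
  exact k ▸ commutator_mem_commutator (d.E_SU _ _ _) (d.E_SU _ _ _)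
end Dm

end CF.U5
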