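import Cfsg.Agent.U5.Fm

/-! Geometry of the unitary space, second part: vector stabilisers, additive and biadditive maps. -/

set_option autoImplicit false
set_option linter.unusedSectionVars false
set_option linter.unusedVariables false

namespace CF.U5

open Subgroup Equiv CF.Geom Module CF.Loc CF.LX
open scoped commutatorElement

variable {K : Type} [Field K] [Fintype K] [CharP K 2] {m q : ℕ} {σ θ : K ≃+* K} {a b c ζ : K}
  {g p k ξ : Perm (Fin m → K)} {u v w x y e n u' v' : Fin m → K} {T T' S : Submodule K (Fin m → K)}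
  {H P : Subgroup (Perm (Fin m → K))}

theorem Q_sem (h : g ∈ Q σ v) : Sem σ 1 g := (show Q σ v ≤ GU σ m from (closure_le _).2 fun _ ⟨_, _, e⟩ => e ▸ E_sem _ _ _) h
theorem E_self (v n : Fin m → K) (ζ : K) : E σ v n ζ v = v := by
  by_cases o : Ok σ v n ζ
  exacts [E_fix o.vv o.vn ζ, by simp [E_junk o]]
theorem E_split (o : Ok σ v n ζ) (h : hf σ n n = 0) : σ ζ = ζ ∧ E σ v n ζ = E σ v n 0 * E σ v 0 ζ := by
  have : σ ζ = ζ := by have := o.tr; grind
  exact ⟨this, by simp [E_mul (ok_iso o.iv o.vv h o.nv) (ok_tv o.iv o.vv this)]⟩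

variable (σ) in
/-- the stabiliser of `v` up to scalars of norm one -/
def Ys (v : Fin m → K) : Subgroup (Perm (Fin m → K)) where
  carrier := {g | g ∈ SU σ m ∧ ∃ c : K, c * σ c = 1 ∧ g v = c • v}
  mul_mem' := fun ⟨a, c, e, f⟩ ⟨a', c', e', f'⟩ => ⟨mul_mem a a', c' * c, by rw [map_mul]; grind, by
    rw [Perm.mul_apply, f', (su_sem a).smul1, f, smul_smul]⟩
  one_mem' := ⟨one_mem _, 1, by simp, by simp⟩
  inv_mem' := fun ⟨a, c, e, f⟩ => ⟨inv_mem a, σ c, by simpa using congrArg σ e, Perm.inv_eq_iff_eq.2 (by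
    rw [(su_sem a).smul1, f, smul_smul, mul_comm, e, one_smul])⟩

namespace Fd
variable (d : Fd σ q)
include d
theorem ok (hv : hf σ v v = 0) (h : hf σ n v = 0) : ∃ ζ, Ok σ v n ζ := (d.trc (d.sy n n)).imp fun _ e => ⟨d.iv, hv, h, e⟩
theorem dec (hv : hf σ v v = 0) (hy : hf σ y y = 0) (e : hf σ y v = 1) (x : Fin m → K) :
    ∃ w, x = hf σ x y • v + hf σ x v • y + w ∧ hf σ w v = 0 ∧ hf σ w y = 0 := d.herm.hyp_decomp hv hy e x
theorem ext_hyp (hv : hf σ v v = 0) (hy : hf σ y y = 0) (e : hf σ y v = 1) (l : Sem σ θ g) (l' : Sem σ θ k) (h1 : g v = k v)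
    (h2 : g y = k y) (h3 : ∀ x, hf σ x v = 0 → hf σ x y = 0 → g x = k x) : g = k := Equiv.ext fun x => by
  obtain ⟨w, f, a, b⟩ := d.dec hv hy e x
  rw [f]; simp only [l.add, l.smul, l'.add, l'.smul, h1, h2, h3 w a b]
theorem Q_move (hv : hf σ v v = 0) (hy : hf σ y y = 0) (hx : hf σ x x = 0) (e : hf σ y v = 1) (f : hf σ x v = 1) :
    Ok σ v (x + y) (hf σ y x) ∧ E σ v (x + y) (hf σ y x) y = x := by
  have o : Ok σ v (x + y) (hf σ y x) := ⟨d.iv, hv, by simp [e, f, CharTwo.add_self_eq_zero], by simp [*, d.sy, add_comm]⟩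
  refine ⟨o, ?_⟩
  rw [E_ap o]; simp [*, CharTwo.add_self_eq_zero, add_comm x, ← add_assoc, vv]
theorem mem_Q_of (hv : hf σ v v = 0) (v0 : v ≠ 0) (l : Sem σ 1 p) (e : p v = v) (f : ∀ x, hf σ x v = 0 → ∃ c : K, p x = x + c • v) :
    p ∈ Q σ v := by
  obtain ⟨y, hy, j, j'⟩ := d.partner hv v0
  obtain ⟨o, r⟩ := d.Q_move hv hy (x := p y) (by rw [l.form1, hy]) j (by rw [← e, l.form1, j])
  rw [d.ext_hyp hv hy j l (E_sem v (p y + y) (hf σ y (p y))) (e.trans (E_self ..).symm) r.symm fun x a b => ?_]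
  · exact E_Q _ _ _
  obtain ⟨c, s⟩ := f x a
  have := l.form1 x y
  rw [s, b, hf_add_l, hf_smul_l, ← e, l.form1, j'] at this
  rw [s, E_ap o, a, hf_add_r, b]; congr 1 <;> simp; congr 1; grind
theorem tv_one (hw : hf σ w w = 0) (e : σ a = a) : ∃ c : K, E σ w 0 a = E σ (c • w) 0 1 :=
  (d.nrm e).imp fun c f => by rw [tv_smul d.iv hw (map_one σ), f, mul_one]
end Fd

namespace Dm
variable (d : Dm σ q m)
include d
theorem Q_SU : Q σ v ≤ SU σ m := (closure_le _).2 fun _ ⟨_, _, e⟩ => e ▸ d.E_SU _ _ _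
theorem Q_Y : Q σ v ≤ Y σ v := (closure_le _).2 fun _ ⟨_, _, e⟩ => e ▸ ⟨d.E_SU _ _ _, E_self _ _ _⟩
theorem E_mem (ni : ¬ Ip σ u v) (z : ∀ a, σ a = a → E σ v 0 a ∈ H) (iso : ∀ n, hf σ n n = 0 → hf σ n u = 0 → hf σ n v = 0 → E σ v n 0 ∈ H)
    (o : Ok σ v n ζ) (f : hf σ n u = 0) : E σ v n ζ ∈ H := by
  refine (d.span_iso' ni (p := fun n => hf σ n v = 0 ∧ ∀ ζ, Ok σ v n ζ → E σ v n ζ ∈ H) (fun x y a b => ⟨by simp [a.1, b.1],
    fun ζ o => ?_⟩) (fun x a b c => ⟨c, fun ζ o => ?_⟩) f o.nv).2 ζ o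
  · obtain ⟨ζ', o'⟩ := d.ok o.vv a.1
    have o2 : Ok σ v y (ζ + ζ' + hf σ y x) := ⟨d.iv, o.vv, b.1, by
      have := o.tr; have := o'.tr; simp only [map_add, d.sy, hf_add_l, hf_add_r] at *; grind⟩
    have := mul_mem (a.2 _ o') (b.2 _ o2)
    rwa [E_mul o' o2, show ζ' + (ζ + ζ' + hf σ y x) + hf σ y x = ζ by grind] at this
  · rw [(E_split o a).2]; exact mul_mem (iso x a b c) (z _ (E_split o a).1)
theorem Q_le_of (hv : hf σ v v = 0) (z : ∀ a, σ a = a → E σ v 0 a ∈ H) (iso : ∀ n, hf σ n n = 0 → hf σ n v = 0 → E σ v n 0 ∈ H) :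
    Q σ v ≤ H := fun g i => by
  obtain ⟨n, ζ, o, rfl⟩ := (mem_Q d.iv hv).1 i
  exact d.E_mem nip_self z (fun n a _ => iso n a) o o.nv
theorem Y_gen (hv : hf σ v v = 0) (v0 : v ≠ 0) (l : ∀ w n ζ, Ok σ w n ζ → hf σ w v = 0 → hf σ n v = 0 → E σ w n ζ ∈ H) :
    Y σ v ≤ H := by
  obtain ⟨w, e, w', y, f⟩ := d.fm_one hv v0
  have hQ : Q σ v ≤ H := fun g i => by
    obtain ⟨n, ζ, o, rfl⟩ := (mem_Q d.iv hv).1 i
    exact l _ _ _ o hv o.nv
  let J := H ⊓ (SU σ m ⊓ MulAction.stabilizer _ v ⊓ MulAction.stabilizer _ y)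
  have lJ : ∀ w n ζ, Ok σ w n ζ → hf σ w v = 0 → hf σ n v = 0 → hf σ w y = 0 → hf σ n y = 0 → E σ w n ζ ∈ J :=
    fun w n ζ o a b c e => ⟨l _ _ _ o a b, ⟨d.E_SU _ _ _, E_fix (d.sw a) (d.sw b) _⟩, E_fix (d.sw c) (d.sw e) _⟩
  have mv : ∀ {w e w'}, Fm σ v w e w' y → ∀ x, hf σ x x = 0 → hf σ x v = 0 → hf σ x y = 0 → hf σ x w ≠ 0 →
      ∃ k ∈ J, k w = w ∧ k (hf σ x w • w') = x := fun {w e w'} f x h1 h2 h3 h4 => by
    have s : σ (hf σ x w) ≠ 0 := by simpa
    obtain ⟨o, r⟩ := d.Q_move (v := (σ (hf σ x w))⁻¹ • w) (y := hf σ x w • w') (x := x) (by simp [f.h]) (by simp [f.h]) h1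
      (by simp [f.h, d.iv _, h4]) (by simp [d.iv _, h4])
    exact ⟨_, lJ _ _ _ o (by simp [f.h]) (by simp [f.h, h2]) (by simp [f.h]) (by simp [f.h, h3]), E_fix (by simp [f.h])
      (by simp [f.h, ← d.sy x w, CharTwo.add_self_eq_zero]) _, r⟩
  have sc : ∀ {w e w'}, Fm σ v w e w' y → ∀ ζ : K, ζ ≠ 0 → ∃ k ∈ J, k w = ζ • w' := fun {w e w'} f ζ z => by
    obtain ⟨c, hc⟩ := d.nrm (a := ζ + σ ζ) (by simp [d.iv ζ, add_comm])
    obtain ⟨k, a, -, b⟩ := mv f (w + c • e + ζ • w') (by simp [f.h]; grind) (by simp [f.h]) (by simp [f.h]) (by simp [f.h, z])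
    obtain ⟨k', a', -, b'⟩ := mv f.rev (w + c • e + ζ • w') (by simp [f.h]; grind) (by simp [f.h]) (by simp [f.h]) (by simp [f.h])
    simp [f.h] at b b'
    exact ⟨k⁻¹ * k', mul_mem (inv_mem a) a', by rw [Perm.mul_apply, b', ← b]; simp⟩
  have tr : ∀ x, hf σ x x = 0 → hf σ x v = 0 → hf σ x y = 0 → x ≠ 0 → ∃ k ∈ J, k w = x := fun x h1 h2 h3 h4 => by
    by_cases z : hf σ x w = 0
    · obtain ⟨a1, a2, a3, rfl⟩ := d.fp3 f h2 h3
      obtain rfl : a3 = 0 := by simpa [f.h] using z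
      obtain rfl : a2 = 0 := by simpa [f.h] using h1
      obtain ⟨k, a, b⟩ := sc f 1 one_ne_zero
      obtain ⟨k', a', b'⟩ := sc f.rev a1 (by simpa using h4.imp fun z => by simp [z])
      exact ⟨k' * k, mul_mem a' a, by simp [b, b']⟩
    obtain ⟨k, a, -, b⟩ := mv f x h1 h2 h3 z
    obtain ⟨k', a', b'⟩ := sc f _ z
    exact ⟨k * k', mul_mem a a', by rw [Perm.mul_apply, b', b]⟩
  suffices ∀ g ∈ SU σ m, g v = v → g y = y → g ∈ H by
    intro g ⟨i, e⟩
    replace e : g v = v := e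
    obtain ⟨o, r⟩ := d.Q_move hv (y := y) (x := g y) (by simp [f.h]) (by simp [(su_sem i).form1, f.h]) (by simp [f.h])
      (by rw [← e, (su_sem i).form1]; simp [f.h])
    exact (mul_mem_cancel_left (inv_mem (hQ (E_Q _ _ _)))).1 (this _ (mul_mem (inv_mem (d.E_SU _ _ _)) i)
      (Perm.inv_eq_iff_eq.2 (e.trans (E_self ..).symm)) (Perm.inv_eq_iff_eq.2 r.symm))
  have st : ∀ g ∈ SU σ m, g v = v → g y = y → g w = w → g ∈ H := fun g i e1 e2 e3 => by
    have k : ∀ x z, g z = z → hf σ (g x) z = hf σ x z := fun x z h => by rw [← (su_sem i).form1 x z, h]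
    obtain ⟨p, a, b, c⟩ := mv f (g w') (by simp [(su_sem i).form1, f.h]) (by simp [k _ _ e1, f.h]) (by simp [k _ _ e2, f.h])
      (by simp [k _ _ e3, f.h])
    rw [k _ _ e3] at c
    rw [inv_mul_eq_one.1 (d.fone f (mul_mem (inv_mem a.2.1.1) i) (Perm.inv_eq_iff_eq.2 (e1.trans a.2.1.2.symm))
      (Perm.inv_eq_iff_eq.2 (e3.trans b.symm)) (Perm.inv_eq_iff_eq.2 (by simpa [f.h] using c.symm))
      (Perm.inv_eq_iff_eq.2 (e2.trans a.2.2.symm))) |>.symm]
    exact a.1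
  intro g i e1 e2
  have k : ∀ x z, g z = z → hf σ (g x) z = hf σ x z := fun x z h => by rw [← (su_sem i).form1 x z, h]
  obtain ⟨p, a, b⟩ := tr (g w) (by simp [(su_sem i).form1, f.h]) (by simp [k _ _ e1, f.h]) (by simp [k _ _ e2, f.h])
    ((su_sem i).ne f.sw.v0)
  exact (H.mul_mem_cancel_left (H.inv_mem a.1)).1 (st _ (mul_mem (inv_mem a.2.1.1) i) (Perm.inv_eq_iff_eq.2 (e1.trans a.2.1.2.symm))
    (Perm.inv_eq_iff_eq.2 (e2.trans a.2.2.symm)) (Perm.inv_eq_iff_eq.2 b.symm))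
theorem Y_Ys : Y σ v ≤ Ys σ v := fun g i => ⟨i.1, 1, by simp, by simpa using i.2⟩
theorem ex_ne : ∃ a : K, a ≠ 0 ∧ a + 1 ≠ 0 := by
  obtain ⟨c, a, b⟩ := d.one
  exact ⟨c, fun z => by simp [z] at a, fun z => b (by grind)⟩
theorem Q_der (hv : hf σ v v = 0) (v0 : v ≠ 0) : Q σ v ≤ ⁅Y σ v, Q σ v⁆ := by
  have z : ∀ a, σ a = a → E σ v 0 a ∈ ⁅Y σ v, Q σ v⁆ := fun a e => by
    obtain ⟨n, n', -, -, -, -, -, -, k⟩ := d.tv_comm hv e v nip_self
    exact k ▸ commutator_mem_commutator (d.Q_Y (E_Q _ _ _)) (E_Q _ _ _)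
  refine d.Q_le_of hv z fun n a b => ?_
  rcases d.ip_or hv v0 a b with ⟨c, rfl⟩ | i
  · have := E_shift (ok_tv d.iv hv (a := c + σ c) (by simp [d.iv c, add_comm])) c
    rw [zero_add, show c + σ c + c + σ c = 0 by grind] at this
    exact this ▸ z _ (by simp [d.iv c, add_comm])
  obtain ⟨s, s0, s1⟩ := d.ex_ne
  obtain ⟨e, w', v', f⟩ := d.fm_ip i
  obtain ⟨g, j, g0, g1, -⟩ := d.dia f (a := 1) (c := σ s / s) one_ne_zero s0 (by field_simp; simp)
  have o := ok_iso d.iv hv (n := (s + 1)⁻¹ • n) (by simp [a]) (by simp [b])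
  have := commutator_mem_commutator (show g ∈ Y σ v from ⟨j, by simpa using g0⟩) (E_Q (σ := σ) v ((s + 1)⁻¹ • n) 0)
  rwa [commutatorElement_def, E_cj1 (su_sem j), E_inv o, g0, one_smul, (su_sem j).smul1, g1, map_zero,
    E_mul (ok_iso d.iv hv (by simp [a]) (by simp [b])) o, show (s + 1)⁻¹ • s • n + (s + 1)⁻¹ • n = n by
      rw [smul_smul, ← add_smul, show (s + 1)⁻¹ * s + (s + 1)⁻¹ = 1 by field_simp, one_smul], show 0 + 0 + hf σ _ _ = 0 by simp [a]] at this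
theorem Y_der (hv : hf σ v v = 0) (v0 : v ≠ 0) : Y σ v ≤ ⁅Ys σ v, Ys σ v⁆ := by
  have hQ := (d.Q_der hv v0).trans (commutator_mono d.Y_Ys (d.Q_Y.trans d.Y_Ys))
  refine d.Y_gen hv v0 fun w n ζ o a b => ?_
  rcases d.ip_or hv v0 o.vv a with ⟨c, rfl⟩ | i
  · exact E_smul o hv b ▸ hQ (E_Q _ _ _)
  obtain ⟨e, w', v', f⟩ := d.fm_ip i
  have eY : ∀ (c ζ : K), E σ w (c • e) ζ ∈ Ys σ v := fun c ζ => d.Y_Ys ⟨d.E_SU _ _ _, E_fix (by simp [f.h]) (by simp [f.h]) _⟩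
  have z : ∀ a, σ a = a → E σ w 0 a ∈ ⁅Ys σ v, Ys σ v⁆ := fun a e' => by
    obtain ⟨c, rfl⟩ := d.trc e'
    obtain ⟨ζ, o⟩ := d.ok (v := w) (n := c • e) o.vv (by simp [f.h])
    obtain ⟨ζ', o'⟩ := d.ok (v := w) (n := (1 : K) • e) o.vv (by simp [f.h])
    have := commutator_mem_commutator (eY c ζ) (eY 1 ζ')
    rw [E_comm o o'] at this; simpa [f.h] using this
  have z' : ∀ n ζ ζ', Ok σ w n ζ → Ok σ w n ζ' → E σ w n ζ ∈ ⁅Ys σ v, Ys σ v⁆ → E σ w n ζ' ∈ ⁅Ys σ v, Ys σ v⁆ := fun n ζ ζ' o o' i => by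
    have k : σ (ζ + ζ') = ζ + ζ' := by have := o.tr; have := o'.tr; rw [map_add]; grind
    simpa [E_mul o (ok_tv d.iv o.vv k), ← add_assoc, CharTwo.add_self_eq_zero] using mul_mem i (z _ k)
  obtain ⟨s, s0, s1⟩ := d.one
  have s2 : s ≠ 0 := fun z => by simp [z] at s0
  have s3 : σ s * σ s + 1 ≠ 0 := fun z => s1 (sq_inj (by grind))
  obtain ⟨g, j, g0, g1, g2, -⟩ := d.dia f (a := s) (b := 1) (c := σ s * σ s) s2 one_ne_zero (by simp; grind)
  have ee : ∀ (c ζ : K), Ok σ w (c • e) ζ → E σ w (c • e) ζ ∈ ⁅Ys σ v, Ys σ v⁆ := fun c ζ o => by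
    obtain ⟨ζ', o'⟩ := d.ok (v := w) (n := ((σ s * σ s + 1)⁻¹ * c) • e) o.vv (by simp [f.h])
    have := commutator_mem_commutator (show g ∈ Ys σ v from ⟨j, s, s0, g0⟩) (eY ((σ s * σ s + 1)⁻¹ * c) ζ')
    have o2 : Ok σ (g w) _ ζ' := o'.cj (su_sem j)
    rw [g1, one_smul] at o2
    rw [commutatorElement_def, E_cj1 (su_sem j), E_inv o', g1, one_smul, E_mul o2 o'.inv] at this
    have o3 := o2.mul o'.inv
    rw [show g (((σ s * σ s + 1)⁻¹ * c) • e) + ((σ s * σ s + 1)⁻¹ * c) • e = c • e by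
      rw [(su_sem j).smul1, g2, smul_smul, ← add_smul, ← mul_add_one, mul_right_comm, inv_mul_cancel₀ s3, one_mul]] at this o3
    exact z' _ _ _ o3 o this
  obtain ⟨a0, a1, a2, rfl⟩ := d.fp2 f b o.nv
  obtain ⟨ζ', o'⟩ := d.ok (v := w) (n := a2 • e) o.vv (by simp [f.h])
  have o1 := ok_iso d.iv o.vv (n := a0 • v) (by simp [f.h]) (by simp [f.h])
  have k := mul_mem (E_swap d.iv (u := a0 • v) (v := w) (by simp [f.h]) o.vv (by simp [f.h]) ▸
    E_smul (ok_iso d.iv (v := a0 • v) (n := w) (by simp [f.h]) o.vv (by simp [f.h])) hv a ▸ hQ (E_Q _ _ _)) (ee _ _ o')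
  rw [E_mul o1 o', ← E_shift (o1.mul o') a1, add_right_comm] at k
  exact z' _ _ _ (by rw [add_right_comm]; exact (o1.mul o').shift a1) o k
theorem iso_val (ni : ¬ Ip σ u v) (h : x ∉ Submodule.span K {u, v}) (c : K) : ∃ y, hf σ y y = 0 ∧ hf σ y u = 0 ∧ hf σ y v = 0 ∧ hf σ x y = c := by
  obtain ⟨y, a, b, e, f⟩ : ∃ y, hf σ y y = 0 ∧ hf σ y u = 0 ∧ hf σ y v = 0 ∧ hf σ x y ≠ 0 := by
    by_contra! z
    exact h (d.mem_of_pp fun y i => d.span_iso' ni (p := fun y => hf σ x y = 0) (fun _ _ a b => by simp [a, b]) z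
      (i _ (Submodule.subset_span (by simp))) (i _ (Submodule.subset_span (by simp))))
  exact ⟨σ (c / hf σ x y) • y, by simp [a], by simp [b], by simp [e], by rw [hf_smul_r, d.iv, div_mul_cancel₀ _ f]⟩
/-- `Y v`-invariant subspaces between `v` and its orthogonal complement -/
theorem Y_irr (hv : hf σ v v = 0) (v0 : v ≠ 0) {p : (Fin m → K) → Prop} (add : ∀ x y, p x → p y → p (x + y))
    (z : ∀ c : K, p (c • v)) (st : ∀ g ∈ Y σ v, ∀ x, p x → p (g x)) (hx : hf σ x v = 0) (h : x ∉ Submodule.span K {v}) (px : p x)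
    (hy : hf σ y v = 0) : p y := by
  obtain ⟨w, a, b, -, c⟩ := d.iso_val (u := v) (v := v) nip_self (by simpa using h) 1
  have pw : p w := by
    have := add _ _ px (st (E σ w 0 1) ⟨tv_SU _ _, E_fix (d.sw b) (by simp) _⟩ x px)
    simpa [E_ap (ok_tv d.iv a (map_one σ)), c, ← add_assoc, vv] using this
  have lw := li_two v0 (w := w) fun k => by
    obtain ⟨e, rfl⟩ := Submodule.mem_span_singleton.1 k
    simp [hx] at c
  refine d.span_iso1 add (fun u i j => ?_) hy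
  by_cases k : u ∈ Submodule.span K {v}
  · obtain ⟨e, rfl⟩ := Submodule.mem_span_singleton.1 k
    exact z e
  obtain ⟨g, s, e, rfl⟩ := d.witt2 lw (li_two v0 k) rfl (a.trans i.symm) ((d.sw b).trans (d.sw j).symm)
  exact st g ⟨s, e⟩ w pw
theorem o2Y (hv : hf σ v v = 0) (v0 : v ≠ 0) (two : IsPGroup 2 P) (l : P ≤ Y σ v) (n : Y σ v ≤ 𝐍(P)) : P ≤ Q σ v := by
  have s : ∀ p ∈ P, Sem σ 1 p := fun p i => su_sem (l i).1
  have f : ∀ p ∈ Y σ v, ∀ x ∈ Submodule.span K {v}, p x ∈ Submodule.span K {v} := fun p i x k => by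
    obtain ⟨e, rfl⟩ := Submodule.mem_span_singleton.1 k
    rwa [(su_sem i.1).smul1, show p v = v from i.2]
  obtain ⟨w, h1, -, h2, -⟩ := d.out v v nip_self
  obtain ⟨x, a, b, c⟩ := fixs two (fun p i => ⟨1, s p i⟩) (fun p i => f p (l i)) (T' := pp σ (Submodule.span K {v}))
    (fun p i x k => mem_perp_singleton.2 (by
      rw [sq_ap, ← show p v = v from (l i).2, (s p i).form1]; exact mem_perp_singleton.1 k))
    fun k => h1 (by simpa using k (mem_perp_singleton.2 h2))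
  intro p i
  refine d.mem_Q_of hv v0 (s p i) (l i).2 fun y k => ?_
  obtain ⟨c, e⟩ := Submodule.mem_span_singleton.1 (d.Y_irr hv v0 (p := fun x => ∀ p ∈ P, p x - x ∈ Submodule.span K {v})
    (fun x y a b p i => by rw [(s p i).add, add_sub_add_comm]; exact add_mem (a p i) (b p i))
    (fun c p i => by rw [(s p i).smul1, show p v = v from (l i).2, sub_self]; exact zero_mem _)
    (fun g j x a p i => by simpa [(su_sem j.1).sub] using f g j _ (a _ ((mem_normalizer_iff''.1 (n j) p).1 i)))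
    (mem_perp_singleton.1 a) b c k p i)
  exact ⟨c, by rw [e, add_sub_cancel]⟩
theorem ua' {M : Type*} [AddCommGroup M] (hv : hf σ v v = 0) (f : (Fin m → K) → M) (A : ∀ u w, hf σ u u = 0 → hf σ w w = 0 →
    hf σ u v = 0 → hf σ w v = 0 → hf σ (u + w) (u + w) = 0 → f (u + w) = f u + f w) :
    ∃ f' : (Fin m → K) → M, (∀ x y, f' (x + y) = f' x + f' y) ∧ ∀ u, hf σ u u = 0 → hf σ u v = 0 → f' u = f u := by
  obtain ⟨ω, o⟩ := d.om
  have iv := d.iv
  have add : ∀ u w, hf σ u u = 0 → hf σ w w = 0 → hf σ u w = 0 → hf σ u v = 0 → hf σ w v = 0 → f (u + w) = f u + f w :=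
    fun u w a b c e f => A u w a b e f (by simp [a, b, c, d.sw c])
  have f0 : f 0 = 0 := by simpa using add 0 0
  obtain ⟨y, hy⟩ : ∃ y, ∀ x, hf σ (x + hf σ x v • y) v = 0 := by
    by_cases v0 : v = 0
    · exact ⟨0, by simp [v0]⟩
    · exact (d.partner hv v0).imp fun y k x => by simp [k.2.1, CharTwo.add_self_eq_zero]
  obtain ⟨e, e', -, h1, h2, h3, -, h4, -, h5⟩ := d.hyp v v 1 nip_self
  have h6 : hf σ e' e = 1 := by rw [← d.sy, h5, map_one]
  let G : (Fin m → K) → K → K → M := fun r a b => f (r + (a • e + b • e')) - f (a • e) - f (b • e')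
  have ae : ∀ a a' : K, f ((a + a') • e) = f (a • e) + f (a' • e) := fun a a' => by
    rw [add_smul, add] <;> simp [*]
  have ae' : ∀ a a' : K, f ((a + a') • e') = f (a • e') + f (a' • e') := fun a a' => by
    rw [add_smul, add] <;> simp [*]
  have GA : ∀ r r' a a' b b', hf σ r v = 0 → hf σ r e = 0 → hf σ r e' = 0 → hf σ r' v = 0 → hf σ r' e = 0 → hf σ r' e' = 0 →
      a * σ b + b * σ a = hf σ r r → a' * σ b' + b' * σ a' = hf σ r' r' →
      a * σ b' + b' * σ a + (a' * σ b + b * σ a') = hf σ r r' + hf σ r' r → G (r + r') (a + a') (b + b') = G r a b + G r' a' b' := by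
    intro r r' a a' b b' k1 k2 k3 k4 k5 k6 k7 k8 k9
    have := d.sw k2; have := d.sw k3; have := d.sw k5; have := d.sw k6
    have := A (r + (a • e + b • e')) (r' + (a' • e + b' • e')) (by simp [*]; grind) (by simp [*]; grind) (by simp [*]) (by simp [*])
      (by simp [*]; grind)
    simp only [G, ae, ae']
    rw [show r + r' + ((a + a') • e + (b + b') • e') = r + (a • e + b • e') + (r' + (a' • e + b' • e')) by module, this]; abel
  have G0 : ∀ a b, a * σ b + b * σ a = 0 → G 0 a b = 0 := fun a b k => by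
    simp only [G, zero_add]
    rw [A] <;> simp [*]
    grind
  have sol : ∀ b b' s t : K, b * σ b' + b' * σ b ≠ 0 → σ s = s → σ t = t →
      ∃ a, a * σ b' + b' * σ a = s ∧ a * σ b + b * σ a = t := fun b b' s t k hs ht => by
    refine ⟨(s * b + t * b') / (b * σ b' + b' * σ b), ?_⟩
    have : σ b * b' + σ b' * b ≠ 0 := by grind
    simp only [map_div₀, map_add, map_mul, iv _, hs, ht]
    constructor <;> field_simp <;> grind
  choose τ hτ using fun r : Fin m → K => d.trc (d.sy r r)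
  have L : ∀ r a b a' b', hf σ r v = 0 → hf σ r e = 0 → hf σ r e' = 0 → a * σ b + b * σ a = hf σ r r →
      a' * σ b' + b' * σ a' = hf σ r r → a * σ b' + b' * σ a = a' * σ b + b * σ a' → G r a' b' = G r a b := by
    intro r a b a' b' k1 k2 k3 k4 k5 k6
    have := GA r 0 a (a + a') b (b + b') k1 k2 k3 (by simp) (by simp) (by simp) k4 (by simp; grind) (by simp; grind)
    rwa [G0 _ _ (by simp; grind), add_zero, add_zero, CharTwo.add_cancel_left, CharTwo.add_cancel_left] at this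
  have B1 : ∀ r a b b', hf σ r v = 0 → hf σ r e = 0 → hf σ r e' = 0 → a * σ b + b * σ a = hf σ r r → b * σ b' + b' * σ b ≠ 0 →
      ∃ a', a' * σ b' + b' * σ a' = hf σ r r ∧ G r a' b' = G r a b := fun r a b b' k1 k2 k3 k4 k5 => by
    obtain ⟨a', s, t⟩ := sol b b' _ (a * σ b' + b' * σ a) k5 (d.sy r r) (by simp [iv _]; ring)
    exact ⟨a', s, L r a b a' b' k1 k2 k3 k4 s t.symm⟩
  have B : ∀ r a b, hf σ r v = 0 → hf σ r e = 0 → hf σ r e' = 0 → a * σ b + b * σ a = hf σ r r → G r a b = G r (τ r) 1 := by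
    have B2 : ∀ r a b, hf σ r v = 0 → hf σ r e = 0 → hf σ r e' = 0 → a * σ b + b * σ a = hf σ r r → σ b ≠ b →
        G r a b = G r (τ r) 1 := fun r a b k1 k2 k3 k4 k5 => by
      obtain ⟨a', s, t⟩ := B1 r a b 1 k1 k2 k3 k4 (by simp; grind)
      have := hτ r
      rw [← t, L r a' 1 (τ r) 1 k1 k2 k3 s (by simpa) (by simp at s ⊢; grind)]
    intro r a b k1 k2 k3 k4
    by_cases z : b = 0
    · have := hτ r
      have z' : hf σ r r = 0 := by simpa [z] using k4.symm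
      rw [← L r (τ r) 1 0 1 k1 k2 k3 (by simpa) (by simp [z']) (by simp [this, z'])]
      simp only [G, z, zero_smul, add_zero, zero_add, one_smul, f0]
      rw [add r, add r] <;> simp [*]
    by_cases k : σ b = b
    · obtain ⟨a', s, t⟩ := B1 r a b ω k1 k2 k3 k4 (by rw [k]; grind)
      rw [← t, B2 r a' ω k1 k2 k3 s (by grind)]
    · exact B2 r a b k1 k2 k3 k4 k
  let π : (Fin m → K) → Fin m → K := fun x => x + hf σ x e' • e + hf σ x e • e'
  have π1 : ∀ x, hf σ x v = 0 → hf σ (π x) v = 0 ∧ hf σ (π x) e = 0 ∧ hf σ (π x) e' = 0 := fun x k => by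
    simp [π, CharTwo.add_self_eq_zero, *]
  let F : (Fin m → K) → M := fun x => G (π x) (τ (π x)) 1 + f (hf σ x e' • e) + f (hf σ x e • e')
  refine ⟨fun x => F (x + hf σ x v • y), fun x x' => ?_, fun u hu k => ?_⟩
  · beta_reduce
    rw [show x + x' + hf σ (x + x') v • y = x + hf σ x v • y + (x' + hf σ x' v • y) by rw [hf_add_l]; module]
    obtain ⟨a1, a2, a3⟩ := π1 _ (hy x)
    obtain ⟨b1, b2, b3⟩ := π1 _ (hy x')
    generalize x + hf σ x v • y = z at *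
    generalize x' + hf σ x' v • y = z' at *
    have e1 : π (z + z') = π z + π z' := by simp only [π, hf_add_l]; module
    have := hτ (π z)
    obtain ⟨a', s, t⟩ := sol 1 ω _ (τ (π z) * σ ω + ω * σ (τ (π z)) + (hf σ (π z) (π z') + hf σ (π z') (π z))) (by simp; grind)
      (d.sy (π z') (π z')) (by simp [iv _, d.sy]; ring)
    have e2 := GA _ _ (τ (π z)) a' 1 ω a1 a2 a3 b1 b2 b3 (by simpa) s (by rw [t]; grind)
    rw [B _ _ _ b1 b2 b3 s, B _ _ _ (by simp [*]) (by simp [*]) (by simp [*]) (by simp at s t ⊢; grind)] at e2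
    simp only [F, hf_add_l, ae, ae', e1, e2]; abel
  · obtain ⟨a1, a2, a3⟩ := π1 _ k
    simp only [k, zero_smul, add_zero, F]
    rw [← B _ (hf σ u e') (hf σ u e) a1 a2 a3 (by simp [π, d.sy, *])]
    simp only [G, π]
    rw [add_assoc u, add_assoc u, vv, add_zero]; abel
theorem ua {M : Type*} [CommGroup M] (hv : hf σ v v = 0) (f : (Fin m → K) → M) (add : ∀ u w, hf σ u u = 0 → hf σ w w = 0 →
    hf σ u v = 0 → hf σ w v = 0 → hf σ (u + w) (u + w) = 0 → f (u + w) = f u * f w) :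
    ∃ f' : (Fin m → K) → M, (∀ x y, f' (x + y) = f' x * f' y) ∧ ∀ u, hf σ u u = 0 → hf σ u v = 0 → f' u = f u :=
  d.ua' (M := Additive M) hv f add
theorem bf {M : Type*} [CommGroup M] (hv : hf σ v v = 0) (β : (Fin m → K) → (Fin m → K) → M)
    (l : ∀ x x' y, hf σ x v = 0 → hf σ x' v = 0 → hf σ y v = 0 → β (x + x') y = β x y * β x' y)
    (r : ∀ x y y', hf σ x v = 0 → hf σ y v = 0 → hf σ y' v = 0 → β x (y + y') = β x y * β x y')
    (z : ∀ x y, hf σ x x = 0 → hf σ x y = 0 → hf σ x v = 0 → hf σ y v = 0 → β x y = 1)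
    (z' : ∀ x y, hf σ x x = 0 → hf σ y x = 0 → hf σ x v = 0 → hf σ y v = 0 → β y x = 1) (v0 : v ≠ 0) :
    ∃ f : K → M, (∀ a b, f (a + b) = f a * f b) ∧ ∀ x y, hf σ x v = 0 → hf σ y v = 0 → β x y = f (hf σ x y) := by
  have R : ∀ u y y', hf σ u u = 0 → hf σ u v = 0 → hf σ y v = 0 → hf σ y' v = 0 → hf σ u y = hf σ u y' → β u y = β u y' := by
    intro u y y' a b c e f
    rw [← mul_one (β u y'), ← z u (y' + y) a (by simp [f, CharTwo.add_self_eq_zero]) b (by simp [*]), ← r _ _ _ b e (by simp [*]),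
      ← add_assoc, vv, zero_add]
  have L : ∀ u y y', hf σ u u = 0 → hf σ u v = 0 → hf σ y v = 0 → hf σ y' v = 0 → hf σ y u = hf σ y' u → β y u = β y' u := by
    intro u y y' a b c e f
    rw [← mul_one (β y' u), ← z' u (y' + y) a (by simp [f, CharTwo.add_self_eq_zero]) b (by simp [*]), ← l _ _ _ e (by simp [*]) b,
      ← add_assoc, vv, zero_add]
  have C : ∀ u u' w w', hf σ u u = 0 → hf σ u v = 0 → hf σ u' u' = 0 → hf σ u' v = 0 → hf σ w v = 0 → hf σ w' v = 0 →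
      hf σ u w ≠ 0 → u' ∉ Submodule.span K {v, u} → hf σ u w = hf σ u' w' → β u w = β u' w' := by
    intro u u' w w' a b a' b' c c' n n' e
    obtain ⟨y, h1, h2, h3, h4⟩ : ∃ y, hf σ y y = 0 ∧ hf σ y v = 0 ∧ hf σ y (u + u') = 0 ∧ hf σ u y = hf σ u w := by
      by_cases ni : Ip σ v (u + u')
      · have : hf σ u u' ≠ 0 := fun z => n' (d.ip_max (d.ip_of hv v0 a b fun k => by
          obtain ⟨_, rfl⟩ := Submodule.mem_span_singleton.1 k; simp [d.sw c] at n) a' b' (d.sw z))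
        exact ⟨σ (hf σ u w / hf σ u u') • (u + u'), by simp only [hf_smul_l, hf_smul_r, ni.vv, mul_zero],
          by simp only [hf_smul_l, ni.vu, mul_zero], by simp only [hf_smul_l, ni.vv, mul_zero],
          by rw [hf_smul_r, d.iv, hf_add_r, a, zero_add, div_mul_cancel₀ _ this]⟩
      exact d.iso_val (x := u) (u := v) (v := u + u') ni (fun k => by
        obtain ⟨s, t, k⟩ := Submodule.mem_span_pair.1 k
        by_cases z : t = 0
        · exact n (by rw [← k]; simp [z, d.sw c])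
        · exact n' (Submodule.mem_span_pair.2 ⟨-(s / t), (1 - t) / t, by
            apply smul_right_injective _ z; simp only [smul_add, smul_smul]; field_simp; linear_combination (norm := module) -k⟩))
        (hf σ u w)
    have : hf σ u y = hf σ u' y := by have := d.sw h3; rw [hf_add_l] at this; grind
    rw [R u w y a b c h2 h4.symm, L y u u' h1 h2 b b' this, R u' y w' a' b' h2 c' (by rw [← this, h4, e])]
  obtain ⟨e, e', -, h1, h2, h3, -, h4, -, h5⟩ := d.hyp v v 1 nip_self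
  have h6 : hf σ e' e = 1 := by rw [← d.sy, h5, map_one]
  have ad : ∀ a b : K, β e (σ (a + b) • e') = β e (σ a • e') * β e (σ b • e') := fun a b => by
    rw [map_add, add_smul, r] <;> simp [*]
  refine ⟨fun c => β e (σ c • e'), ad, fun x y hx hy => ?_⟩
  refine (d.span_iso1 (p := fun x => hf σ x v = 0 ∧ β x y = β e (σ (hf σ x y) • e')) (fun x x' i j => ⟨by simp [i.1, j.1], by
    rw [l _ _ _ i.1 j.1 hy, i.2, j.2, hf_add_l, ad]⟩) (fun x i j => ⟨j, ?_⟩) hx).2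
  by_cases n : hf σ x y = 0
  · rw [R x y 0 i j hy (by simp) (by simp [n]), n, z x 0 i (by simp) j (by simp), z] <;> simp [*]
  have s : ∀ z ∈ Submodule.span K {v, x}, ∀ z' ∈ Submodule.span K {v, x}, hf σ z z' = 0 := fun z a z' b => by
    obtain ⟨_, _, rfl⟩ := Submodule.mem_span_pair.1 a
    obtain ⟨_, _, rfl⟩ := Submodule.mem_span_pair.1 b
    simp [d.sw j, *]
  by_cases k : e ∈ Submodule.span K {v, x}
  · rw [C x e' y (σ (hf σ x y) • e) i j h2 h4 hy (by simp [*]) n (fun k' => by simp [s _ k _ k'] at h5) (by simp [d.iv _, *]),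
      C e e' _ (σ (hf σ x y) • e) h1 h3 h2 h4 (by simp [*]) (by simp [*]) (by simpa [d.iv _, h5]) (fun k' => by
        obtain ⟨_, _, rfl⟩ := Submodule.mem_span_pair.1 k'
        simp [h1, h3] at h5) (by simp [*])]
  · exact C x e y _ i j h1 h3 hy (by simp [*]) n k (by simp [d.iv _, *])
end Dm

end CF.U5
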