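import Cfsg.Agent.U5.C1

/-! Frames of the five-dimensional unitary space. -/

set_option autoImplicit false
set_option linter.unusedSectionVars false
set_option linter.unusedVariables false

namespace CF.U5

open Subgroup Equiv CF.Geom Module CF.Loc CF.LX
open scoped commutatorElement

variable {K : Type} [Field K] [Fintype K] [CharP K 2] {m q : ℕ} {σ θ : K ≃+* K} {a b c ζ : K}
  {g p k ξ : Perm (Fin m → K)} {u v w x y e n u' v' w' : Fin m → K} {T T' S : Submodule K (Fin m → K)}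

theorem dt_dia (l : Sem σ 1 g) (c : Fin m → K) (h : ∀ i : Fin m, g (bv i) = c i • bv i) : dt σ g = ∏ i, c i := by
  rw [dt_eq l, show lin l = Matrix.toLin' (Matrix.diagonal c) from (Pi.basisFun K (Fin m)).ext fun i => by
    simp [lin_ap, ← bv_eq, h]; simp [bv_eq, ← Pi.single_smul], LinearMap.det_toLin', Matrix.det_diagonal]

variable (σ) in
/-- frames -/
structure Fm (v w e w' v' : Fin m → K) : Prop where
  h : hf σ v v = 0 ∧ hf σ v w = 0 ∧ hf σ v e = 0 ∧ hf σ v w' = 0 ∧ hf σ v v' = 1 ∧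
    hf σ w v = 0 ∧ hf σ w w = 0 ∧ hf σ w e = 0 ∧ hf σ w w' = 1 ∧ hf σ w v' = 0 ∧
    hf σ e v = 0 ∧ hf σ e w = 0 ∧ hf σ e e = 1 ∧ hf σ e w' = 0 ∧ hf σ e v' = 0 ∧
    hf σ w' v = 0 ∧ hf σ w' w = 1 ∧ hf σ w' e = 0 ∧ hf σ w' w' = 0 ∧ hf σ w' v' = 0 ∧
    hf σ v' v = 1 ∧ hf σ v' w = 0 ∧ hf σ v' e = 0 ∧ hf σ v' w' = 0 ∧ hf σ v' v' = 0

namespace Fm
variable (f : Fm σ v w e w' v')
include f
theorem cj (s : Sem σ 1 g) : Fm σ (g v) (g w) (g e) (g w') (g v') := ⟨by simp [s.form1, f.h]⟩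
theorem sw : Fm σ w v e v' w' := ⟨by simp [f.h]⟩
theorem rev : Fm σ v w' e w v' := ⟨by simp [f.h]⟩
theorem rev' : Fm σ v' w e w' v := ⟨by simp [f.h]⟩
theorem sme (h : c * σ c = 1) : Fm σ v w (c • e) w' v' := ⟨by simp [f.h, mul_comm (σ c), h]⟩
theorem li : LinearIndependent K ![v, w, e, w', v'] := by
  rw [Fintype.linearIndependent_iff]
  intro c h i
  have k := fun y => congrArg (hf σ · y) h
  simp only [Fin.sum_univ_five] at k
  fin_cases i
  exacts [by simpa [f.h] using k v', by simpa [f.h] using k w', by simpa [f.h] using k e, by simpa [f.h] using k w,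
    by simpa [f.h] using k v]
theorem ip : Ip σ v w := by
  refine ⟨f.h.1, by simp [f.h], by simp [f.h], by simp [f.h], LinearIndependent.pair_iff.2 fun s t h => ?_⟩
  exact ⟨by simpa [f.h] using congrArg (hf σ · v') h, by simpa [f.h] using congrArg (hf σ · w') h⟩
theorem v0 : v ≠ 0 := f.ip.u0
theorem inj {a0 a1 a2 a3 a4 b0 b1 b2 b3 b4 : K}
    (h : a0 • v + a1 • w + a2 • e + a3 • w' + a4 • v' = b0 • v + b1 • w + b2 • e + b3 • w' + b4 • v') :
    a0 = b0 ∧ a1 = b1 ∧ a2 = b2 ∧ a3 = b3 ∧ a4 = b4 :=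
  have k := fun y => congrArg (hf σ · y) h
  ⟨by simpa [f.h] using k v', by simpa [f.h] using k w', by simpa [f.h] using k e, by simpa [f.h] using k w, by simpa [f.h] using k v⟩
end Fm

namespace Dm
variable (d : Dm σ q m)
include d
theorem fm0 : Fm σ (bv 0 : Fin m → K) (bv 1) (bv 2) (bv 3) (bv 4) := by
  obtain rfl := d.hm
  exact ⟨by simp [hf_bb]⟩
theorem ftr0 (f : Fm σ v w e w' v') {v₁ w₁ e₁ w₁' v₁' : Fin m → K} (f' : Fm σ v₁ w₁ e₁ w₁' v₁') :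
    ∃ g, Sem σ 1 g ∧ g v = v₁ ∧ g w = w₁ ∧ g e = e₁ ∧ g w' = w₁' ∧ g v' = v₁' := by
  obtain ⟨g, l, k⟩ := d.witt0 f.li f'.li fun i j => by fin_cases i <;> fin_cases j <;> simp [f.h, f'.h]
  exact ⟨g, l, k 0, k 1, k 2, k 3, k 4⟩
theorem ftr (f : Fm σ v w e w' v') {v₁ w₁ e₁ w₁' v₁' : Fin m → K} (f' : Fm σ v₁ w₁ e₁ w₁' v₁') :
    ∃ g ∈ SU σ m, g v = v₁ ∧ g w = w₁ ∧ g w' = w₁' ∧ g v' = v₁' := by
  obtain ⟨g, l, rfl, rfl, rfl, rfl, rfl⟩ := d.ftr0 f f'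
  obtain ⟨r, -, a, b⟩ := d.fix_an l (e := g e) (by simp [f'.h])
  exact ⟨r * g, b, a _ (by simp [f'.h]), a _ (by simp [f'.h]), a _ (by simp [f'.h]), a _ (by simp [f'.h])⟩
theorem fdec (f : Fm σ v w e w' v') (x : Fin m → K) :
    x = hf σ x v' • v + hf σ x w' • w + hf σ x e • e + hf σ x w • w' + hf σ x v • v' := by
  obtain ⟨g, s, rfl, rfl, rfl, rfl, rfl⟩ := d.ftr0 d.fm0 f
  obtain rfl := d.hm
  obtain ⟨x, rfl⟩ := g.surjective x
  simp only [s.form1, ← s.smul1, ← s.add]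
  have h := fun i => hf_bv (σ := σ) x i
  rw [show hf σ x (bv 4) = x 0 from h 0, show hf σ x (bv 3) = x 1 from h 1, show hf σ x (bv 2) = x 2 from h 2,
    show hf σ x (bv 1) = x 3 from h 3, show hf σ x (bv 0) = x 4 from h 4]
  nth_rw 1 [← sum_bv x, Fin.sum_univ_five]; rfl
theorem fex (f : Fm σ v w e w' v') (x : Fin m → K) : ∃ a0 a1 a2 a3 a4 : K, x = a0 • v + a1 • w + a2 • e + a3 • w' + a4 • v' :=
  ⟨_, _, _, _, _, d.fdec f x⟩
/-- vectors orthogonal to `v` -/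
theorem fp1 (f : Fm σ v w e w' v') (a : hf σ x v = 0) : ∃ a0 a1 a2 a3 : K, x = a0 • v + a1 • w + a2 • e + a3 • w' :=
  ⟨_, _, _, _, (d.fdec f x).trans (by rw [a, zero_smul, add_zero])⟩
/-- vectors orthogonal to `v, w` -/
theorem fp2 (f : Fm σ v w e w' v') (a : hf σ x v = 0) (b : hf σ x w = 0) : ∃ a0 a1 a2 : K, x = a0 • v + a1 • w + a2 • e :=
  ⟨_, _, _, (d.fdec f x).trans (by rw [a, b, zero_smul, zero_smul, add_zero, add_zero])⟩
/-- vectors orthogonal to `v, v'` -/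
theorem fp3 (f : Fm σ v w e w' v') (a : hf σ x v = 0) (b : hf σ x v' = 0) : ∃ a1 a2 a3 : K, x = a1 • w + a2 • e + a3 • w' :=
  ⟨_, _, _, (d.fdec f x).trans (by rw [a, b, zero_smul, zero_smul, add_zero, zero_add])⟩
theorem fp4 (f : Fm σ v w e w' v') (a : hf σ x v = 0) (b : hf σ x w = 0) (a' : hf σ x v' = 0) (b' : hf σ x w' = 0) :
    ∃ c : K, x = c • e := ⟨hf σ x e, (d.fdec f x).trans (by simp [a, b, a', b'])⟩
theorem fext (f : Fm σ v w e w' v') (l : Sem σ θ g) (l' : Sem σ θ k) (h0 : g v = k v) (h1 : g w = k w) (h2 : g e = k e)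
    (h3 : g w' = k w') (h4 : g v' = k v') : g = k := Equiv.ext fun x => by
  rw [d.fdec f x]; simp only [l.add, l.smul, l'.add, l'.smul, *]
theorem fdt (f : Fm σ v w e w' v') (l : Sem σ 1 g) {c0 c1 c2 c3 c4 : K} (h0 : g v = c0 • v) (h1 : g w = c1 • w) (h2 : g e = c2 • e)
    (h3 : g w' = c3 • w') (h4 : g v' = c4 • v') : dt σ g = c0 * c1 * c2 * c3 * c4 := by
  obtain ⟨k, s, rfl, rfl, rfl, rfl, rfl⟩ := d.ftr0 d.fm0 f
  obtain rfl := d.hm
  have := dt_dia (s.inv1.mul1 (l.mul1 s)) ![c0, c1, c2, c3, c4] fun i => by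
    fin_cases i <;> simp [*, ← s.smul1]
  rw [dt_mul s.inv1 (l.mul1 s), dt_mul l s, mul_left_comm, ← dt_mul s.inv1 s, inv_mul_cancel, dt_one, mul_one] at this
  simpa [Fin.prod_univ_five] using this
/-- diagonal elements -/
theorem dia (f : Fm σ v w e w' v') (a0 : a ≠ 0) (b0 : b ≠ 0) (h : c * (a * b) = σ a * σ b) : ∃ g ∈ SU σ m,
    g v = a • v ∧ g w = b • w ∧ g e = c • e ∧ g w' = (σ b)⁻¹ • w' ∧ g v' = (σ a)⁻¹ • v' := by
  have a1 : σ a ≠ 0 := by simpa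
  have b1 : σ b ≠ 0 := by simpa
  have c1 : c * σ c = 1 := by
    have := congrArg σ h
    simp only [map_mul, d.iv a, d.iv b] at this
    apply mul_left_cancel₀ (mul_ne_zero (mul_ne_zero a0 b0) (mul_ne_zero a1 b1)); grind
  obtain ⟨g, l, k0, k1, k2, k3, k4⟩ := d.ftr0 f (v₁ := a • v) (w₁ := b • w) (e₁ := c • e) (w₁' := (σ b)⁻¹ • w') (v₁' := (σ a)⁻¹ • v')
    ⟨by simp [f.h, d.iv a, d.iv b, a0, b0, a1, b1, c1, mul_comm (σ c)]⟩
  refine ⟨g, d.mem_SU.2 ⟨l, ?_⟩, k0, k1, k2, k3, k4⟩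
  rw [d.fdt f l k0 k1 k2 k3 k4]; field_simp; grind
theorem fone (f : Fm σ v w e w' v') (i : g ∈ SU σ m) (h0 : g v = v) (h1 : g w = w) (h3 : g w' = w') (h4 : g v' = v') : g = 1 := by
  have s := su_sem i
  have k : ∀ x, g x = x → hf σ (g e) x = hf σ e x := fun x h => by rw [← s.form1 e x, h]
  obtain ⟨c, h2⟩ := d.fp4 f (x := g e) (by simp [k _ h0, f.h]) (by simp [k _ h1, f.h]) (by simp [k _ h4, f.h]) (by simp [k _ h3, f.h])
  have := d.fdt f s (h0.trans (one_smul K v).symm) (h1.trans (one_smul K w).symm) h2 (h3.trans (one_smul K w').symm)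
    (h4.trans (one_smul K v').symm)
  rw [(d.mem_SU.1 i).2] at this
  exact d.fext f s sem_one h0 h1 (by rw [h2, show c = 1 by simpa using this.symm]; simp) h3 h4
theorem fm_ip (h : Ip σ v w) : ∃ e w' v', Fm σ v w e w' v' := by
  have i := d.fm0.ip
  obtain ⟨g, s, rfl, rfl⟩ := d.witt2 i.li h.li (i.uu.trans h.uu.symm) (i.vv.trans h.vv.symm) (i.uv.trans h.uv.symm)
  exact ⟨_, _, _, d.fm0.cj (su_sem s)⟩
theorem fm_one (hv : hf σ v v = 0) (v0 : v ≠ 0) : ∃ w e w' v', Fm σ v w e w' v' := by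
  obtain ⟨g, s, rfl⟩ := d.witt1 d.b00 d.b0 hv v0
  exact ⟨_, _, _, _, d.fm0.cj (su_sem s)⟩
omit d in
theorem _root_.CF.U5.li_hyp (hv : hf σ v v = 0) (e : hf σ v v' ≠ 0) : LinearIndependent K ![v, v'] :=
  li_two (fun z => e (by simp [z])) fun k => by
    obtain ⟨c, rfl⟩ := Submodule.mem_span_singleton.1 k; simp [hv] at e
theorem fm_hyp (hv : hf σ v v = 0) (hv' : hf σ v' v' = 0) (h : hf σ v v' = 1) : ∃ w e w', Fm σ v w e w' v' := by
  have G := d.fm0.h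
  obtain ⟨g, s, rfl, rfl⟩ := d.witt2 (li_hyp (v := bv 0) (v' := bv 4) G.1 (by simp [G])) (li_hyp (v' := v') hv (by simp [h]))
    (by simp [*]) (by simp [*]) (by simp [*])
  exact ⟨_, _, _, d.fm0.cj (su_sem s)⟩
/-- an isotropic vector orthogonal to a totally isotropic plane lies in it -/
theorem ip_max (h : Ip σ v w) (hx : hf σ x x = 0) (a : hf σ x v = 0) (b : hf σ x w = 0) : x ∈ Submodule.span K {v, w} := by
  obtain ⟨e, w', v', f⟩ := d.fm_ip h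
  obtain ⟨a0, a1, a2, rfl⟩ := d.fp2 f a b
  obtain rfl : a2 = 0 := by simpa [f.h] using hx
  exact Submodule.mem_span_pair.2 ⟨a0, a1, by simp⟩
theorem ip_of (hv : hf σ v v = 0) (v0 : v ≠ 0) (hw : hf σ w w = 0) (e : hf σ w v = 0) (n : w ∉ Submodule.span K {v}) : Ip σ v w :=
  ⟨hv, hw, d.sw e, e, li_two v0 n⟩
/-- a nonzero isotropic vector `w ⊥ v` is a multiple of `v` or forms an isotropic pair with it -/
theorem ip_or (hv : hf σ v v = 0) (v0 : v ≠ 0) (hw : hf σ w w = 0) (e : hf σ w v = 0) : (∃ c : K, w = c • v) ∨ Ip σ v w := by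
  by_cases n : w ∈ Submodule.span K {v}
  · exact .inl ((Submodule.mem_span_singleton.1 n).imp fun _ => Eq.symm)
  · exact .inr (d.ip_of hv v0 hw e n)
end Dm

end CF.U5
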