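import Cfsg.Agent.U5.A2
import Cfsg.Agent.Geom.UMat
import Cfsg.Agent.Known.Aut.PSLField

/-! The field with `q ^ 2` elements, `q` even. -/

set_option autoImplicit false
set_option linter.unusedSectionVars false

namespace CF.U5

open CF.Geom

variable {K : Type} [Field K] [Fintype K] [CharP K 2] {q : ℕ} {σ θ : K ≃+* K} {a b c k : K}

theorem exists_rt (a : K) : ∃ c : K, c * c = a := ⟨(frobeniusEquiv K 2).symm a, by
  rw [← sq]; exact (frobeniusEquiv K 2).apply_symm_apply a⟩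
theorem sq_inj (e : a * a = b * b) : a = b := by
  have : (a + b) * (a + b) = 0 := by grind
  grind

namespace Fd
variable (d : Fd σ q)
include d
theorem card' : Fintype.card K = q ^ 2 := Nat.card_eq_fintype_card.symm.trans d.card
theorem iv : Iv σ := fun a => by rw [d.pw, d.pw, ← pow_mul, ← sq, ← d.card', FiniteField.pow_card]
theorem two_le : 2 ≤ q := two_le_of_card_eq_sq d.card'
theorem card_fix : Nat.card {a : K // σ a = a} = q := by simpa only [d.pw] using card_fixed_eq d.card'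
theorem ne : σ ≠ 1 := fun e => by
  have h := d.card_fix
  have := d.two_le
  simp only [e, RingAut.one_apply, Nat.card_subtype_true, d.card] at h
  nlinarith
theorem trc (e : σ a = a) : ∃ c, c + σ c = a := by
  have := card_trace_eq d.card' (a := a) (d.pw a ▸ e)
  obtain ⟨⟨c, h⟩⟩ := (Nat.card_ne_zero.1 (this.trans_ne (by have := d.two_le; omega))).1
  exact ⟨c, d.pw c ▸ h⟩
theorem om : ∃ ω : K, ω + σ ω = 1 := d.trc (map_one σ)
theorem nrm (e : σ a = a) : ∃ c, c * σ c = a := by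
  by_cases a0 : a = 0
  · exact ⟨0, by simp [a0]⟩
  have := card_norm_eq d.card' a0 (d.pw a ▸ e)
  obtain ⟨⟨c, h⟩⟩ := (Nat.card_ne_zero.1 (this.trans_ne (by omega))).1
  exact ⟨c, by rw [d.pw, ← pow_succ', h]⟩
theorem one : ∃ c : K, c * σ c = 1 ∧ c ≠ 1 := by
  obtain ⟨ω, h⟩ := d.om
  have s := d.iv ω
  have : σ ω ≠ 0 := fun e => by grind [map_zero σ, map_one σ]
  have : ω ≠ 0 := fun e => by grind [map_zero σ]
  exact ⟨ω / σ ω, by rw [map_div₀, s]; field_simp, fun e => by rw [div_eq_one_iff_eq ‹_›] at e; grind⟩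
theorem odd (e : c * σ c = 1) : Odd (q + 1) ∧ c ^ (q + 1) = 1 := by
  obtain ⟨n, h, rfl⟩ := d.two
  exact ⟨(Even.pow_of_ne_zero even_two (by omega)).add_one, by rw [pow_succ', ← d.pw, e]⟩
theorem com (θ : K ≃+* K) (c : K) : θ (σ c) = σ (θ c) := by rw [d.pw, d.pw, map_pow]
theorem cyc : IsCyclic (K ≃+* K) := Known.isCyclic_ringAut
theorem aut (e : θ * θ = 1) : θ = 1 ∨ θ = σ := or_iff_not_imp_left.2 fun n =>
  have := d.cyc
  have : Finite (K ≃+* K) := .of_injective _ DFunLike.coe_injective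
  Known.eq_of_orderOf_two (orderOf_eq_prime (by rw [sq, e]) n) (orderOf_eq_prime (by rw [sq]; exact RingEquiv.ext d.iv) d.ne)
theorem norm_two (e : c * σ c = 1) {j : ℕ} (h : c ^ 2 ^ j = 1) : c = 1 := by
  have := pow_gcd_eq_one.2 ⟨h, (d.odd e).2⟩
  rwa [Nat.Coprime.gcd_eq_one (Nat.Coprime.pow_left _ (Nat.coprime_two_left.2 (d.odd e).1)), pow_one] at this
theorem fix_rt (e : σ (c * c) = c * c) : σ c = c := sq_inj (by rw [← map_mul, e])
theorem as (e : σ k = k) : ∃ a, a * a + a = k ∧ (σ a = a ∨ σ a = a + 1) := by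
  suffices ∃ a, a * a + a = k by
    obtain ⟨a, h⟩ := this
    have : σ a * σ a + σ a = k := by rw [← e, ← h, map_add, map_mul]
    have : (σ a + a) * (σ a + a + 1) = 0 := by grind
    exact ⟨a, h, by grind⟩
  obtain ⟨n, hn, rfl⟩ := d.two
  obtain ⟨ω, o⟩ := d.om
  have s : ∀ (x : K) j, (∑ i ∈ Finset.range j, x ^ 2 ^ i) ^ 2 + ∑ i ∈ Finset.range j, x ^ 2 ^ i = x ^ 2 ^ j + x := fun x j => by
    induction j with
    | zero => simp [CharTwo.add_self_eq_zero]
    | succ j ih => rw [Finset.sum_range_succ, pow_succ 2 j, pow_mul]; grind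
  exact ⟨_, by rw [← sq, s (ω * k) n, ← d.pw, map_mul, e, ← add_mul, add_comm, o, one_mul]⟩
end Fd

end CF.U5
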