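import Cfsg.Agent.Dbl.PG1

/-! Pure and mixed involutions when `R × R^t` is weakly closed. -/

set_option autoImplicit false

namespace CF.U5

open Cfsg Subgroup CF.Loc CF.LX CF.Dbl CF.Dbl.Pg
open CF.Dbl.Ie (ti tc cjtt mem_t t2 triv com' swp swp_mul tS0 u1)
open scoped commutatorElement

variable {G : Type*} [Group G] {G₁ G₂ S B R : Subgroup G} {t z g x n : G}

/-- Hypotheses for `IP`: `B` lies in the derived group of its centraliser `R`. -/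
structure IW (G₁ G₂ S B R : Subgroup G) (t z : G) : Prop extends Sw G₁ G₂ S t z where
  rle : R ≤ S ⊓ G₁
  bel : El B
  bR : B ≤ ⁅R, R⁆
  rc : R ≤ 𝐂(B)
  big : 2 < Nat.card B
  rk : ∀ E ≤ S ⊓ 𝐍(G₁), El E → (E ⊓ 𝐂(G₁)).relIndex E ≤ Nat.card B
  rk1 : ∀ E ≤ (S ⊓ G₁) ⊔ (S ⊓ G₂), El E → (E ⊓ 𝐂(G₁)).relIndex E = Nat.card B → E ≤ B ⊔ (S ⊓ 𝐂(G₁))
  der : ⁅S ⊓ 𝐍(G₁), S ⊓ 𝐍(G₁)⁆ ≤ (S ⊓ G₁) ⊔ (S ⊓ G₂)
  cb : ∀ x ∈ S ⊓ 𝐍(G₁), x ∈ 𝐂(B) → x ∈ R ⊔ (S ⊓ 𝐂(G₁))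
  ab : ∀ x ∈ R, x ∉ B → ∀ y ∈ R, ∀ y' ∈ R, x * y = y * x → x * y' = y' * x → y * y' = y' * y
  inv : ∀ a ∈ G₁, a * a = 1 → ∃ g ∈ G₁, g * a * g⁻¹ ∈ B

namespace IW
variable (h : IW G₁ G₂ S B R t z)
include h

theorem bR' : B ≤ R := h.bR.trans ((commutator_le_sup _ _).trans (sup_idem R).le)
theorem ble : B ≤ S ⊓ G₁ := h.bR'.trans h.rle
theorem r2 : cj[t] R ≤ S ⊓ G₂ := t12 h.toSw h.rle
theorem b2 : cj[t] B ≤ S ⊓ G₂ := t12 h.toSw h.ble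
theorem pS : R ⊔ cj[t] R ≤ S := sup_le (h.rle.trans inf_le_left) (h.r2.trans inf_le_left)

theorem pc1 : R ⊔ cj[t] R ≤ 𝐂(B) :=
  sup_le h.rc (((h.r2.trans inf_le_right).trans (com' h.toSw)).trans (centralizer_anti (h.ble.trans inf_le_right)))

theorem pc2 : R ⊔ cj[t] R ≤ 𝐂(cj[t] B) :=
  sup_le (((h.rle.trans inf_le_right).trans h.com).trans (centralizer_anti (h.b2.trans inf_le_right)))
    (by rw [← cj_centralizer]; exact cj_mono t h.rc)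

theorem pc : R ⊔ cj[t] R ≤ 𝐂(B ⊔ cj[t] B) :=
  le_centralizer_iff.1 (sup_le (le_centralizer_iff.1 h.pc1) (le_centralizer_iff.1 h.pc2))

theorem bd : B ⊔ cj[t] B ≤ ⁅R ⊔ cj[t] R, R ⊔ cj[t] R⁆ :=
  sup_le (h.bR.trans (commutator_mono le_sup_left le_sup_left))
    ((cj_mono t h.bR).trans (by rw [cj_commutator]; exact commutator_mono le_sup_right le_sup_right))

theorem elh : El (B ⊔ cj[t] B) := fun x hx => by
  obtain ⟨u, hu, v, hv, rfl⟩ := (ms h.toSw h.ble h.b2).1 hx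
  calc u * v * (u * v) = u * (v * u) * v := by group
    _ = (u * u) * (v * v) := by rw [← cm12 h.toSw (h.ble hu).2 (h.b2 hv).2]; group
    _ = 1 := by rw [h.bel u hu, el_cj h.bel t v hv, one_mul]

theorem uq {a b a' b' : G} (ha : a ∈ S ⊓ G₁) (hb : b ∈ S ⊓ G₂) (ha' : a' ∈ S ⊓ G₁) (hb' : b' ∈ S ⊓ G₂) (e : a * b = a' * b') :
    a = a' ∧ b = b' := by
  have e1 : a'⁻¹ * a = b' * b⁻¹ := by
    calc a'⁻¹ * a = a'⁻¹ * (a * b) * b⁻¹ := by group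
      _ = _ := by rw [e]; group
  have e2 := int h.toSw (mul_mem (inv_mem ha'.1) ha.1) (mul_mem (inv_mem ha'.2) ha.2) (e1 ▸ mul_mem hb'.2 (inv_mem hb.2))
  obtain rfl : a' = a := inv_mul_eq_one.1 e2
  exact ⟨rfl, mul_left_cancel e⟩

theorem nsw {E : Subgroup G} {s : G} (hE : E ≤ S) (hs : s ∈ S) (hn : s ∉ 𝐍(G₁)) (c : s ∈ 𝐂(E)) (i : x ∈ E) (j : x ∈ 𝐂(G₁)) :
    x = 1 := triv h.toSw (hE i) j (by
  have := conj_mem_cj s j
  rwa [cj_centralizer, (swp h.toSw hs hn).1, conj_eq_of_mem_centralizer c i] at this)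

theorem cP (i : x ∈ S) (c : x ∈ 𝐂(B ⊔ cj[t] B)) : x ∈ R ⊔ cj[t] R := by
  have n : x ∈ S ⊓ 𝐍(G₁) := ⟨i, by_contra fun n => by
    have : cj[t] B = ⊥ := (eq_bot_iff_forall _).2 fun y j => h.nsw (h.b2.trans inf_le_left) i n
      (centralizer_anti le_sup_right c) j (com' h.toSw (h.b2 j).2)
    have k := h.big
    rw [← card_cj t B, this, card_bot] at k
    omega⟩
  refine meet h.toSw h.rle h.r2 (h.cb x n (centralizer_anti le_sup_left c)) ?_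
  have := (mem_t h.toSw).2 (h.cb _ (tS0 h.toSw n) (by
    rw [← mem_t h.toSw, cj_centralizer]; exact centralizer_anti le_sup_right c))
  rwa [cj_sup, cj_inf, cj_centralizer, h.t1, cj_eq_self_of_mem h.tS] at this

variable [Finite G]

theorem cardh : Nat.card ↥(B ⊔ cj[t] B) = Nat.card B * Nat.card B := by rw [card2 h.toSw h.ble h.b2, card_cj]

theorem lin {E : Subgroup G} (hE : E ≤ (S ⊓ G₁) ⊔ (S ⊓ G₂)) (he : El E) (hc : Nat.card B * Nat.card B ≤ Nat.card E) :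
    E = B ⊔ cj[t] B := by
  have w := h.toSw
  have ρ3 := h.big
  have l0 : (S ⊓ G₁) ⊔ (S ⊓ G₂) ≤ S ⊓ 𝐍(G₁) :=
    sup_le (u1 w) (inf_le_inf_left _ ((com' w).trans (centralizer_le_normalizer _)))
  have e : ∀ E : Subgroup G, cj[t] E ⊓ 𝐂(G₁) = cj[t] (E ⊓ 𝐂(G₂)) := fun E => by rw [cj_inf, cj_centralizer, t2 w]
  have lt : ∀ {E : Subgroup G}, E ≤ (S ⊓ G₁) ⊔ (S ⊓ G₂) → cj[t] E ≤ (S ⊓ G₁) ⊔ (S ⊓ G₂) := fun l =>
    (cj_mono t l).trans (by rw [cj_sup]; exact sup_le ((t12 w le_rfl).trans le_sup_right) ((t21 w le_rfl).trans le_sup_left))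
  have rk2 : ∀ E ≤ (S ⊓ G₁) ⊔ (S ⊓ G₂), El E → (E ⊓ 𝐂(G₂)).relIndex E ≤ Nat.card B := fun E hE he => by
    have h1 := h.rk (cj[t] E) ((lt hE).trans l0) (el_cj he t)
    rwa [e, relIndex_cj] at h1
  have key : ∀ {K K' : Subgroup G}, (∀ x ∈ S, x ∈ K → x ∈ K' → x = 1) → (E ⊓ K).relIndex E ≤ Nat.card B →
      (E ⊓ K ⊓ K').relIndex (E ⊓ K) ≤ Nat.card B → (E ⊓ K).relIndex E = Nat.card B := fun {K K'} k i1 i2 => by
    rw [(eq_bot_iff_forall (E ⊓ K ⊓ K')).2 fun x hx => k x (l0 (hE hx.1.1)).1 hx.1.2 hx.2, relIndex_bot_left] at i2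
    have := Fgs1.card_mul_relIndex (inf_le_left : E ⊓ K ≤ E)
    by_contra hne
    have : Nat.card E < Nat.card B * Nat.card B := by
      rw [← this]
      exact Nat.mul_lt_mul_of_le_of_lt i2 (lt_of_le_of_ne i1 hne) (by omega)
    omega
  have he' : ∀ K : Subgroup G, El (E ⊓ K) := fun K x hx => he x hx.1
  have a1 := h.rk1 E hE he (key (fun x a b c => triv w a b c) (h.rk E (hE.trans l0) he) (rk2 _ (inf_le_left.trans hE) (he' _)))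
  have a2 := cj_mono t (h.rk1 _ (lt hE) (el_cj he t) (by
    rw [e, relIndex_cj]
    exact key (fun x a b c => triv w a c b) (rk2 E hE he) (h.rk _ (inf_le_left.trans (hE.trans l0)) (he' _))))
  rw [cjtt w, cj_sup, cj_inf, cj_centralizer, h.t1, cj_eq_self_of_mem h.tS] at a2
  exact eq_of_le_of_card_ge (fun x hx => meet w h.ble h.b2 (a1 hx) (a2 hx)) (by rwa [h.cardh])

theorem wcB (l : cj[g] (R ⊔ cj[t] R) ≤ S) : cj[g] (B ⊔ cj[t] B) = B ⊔ cj[t] B := by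
  have w := h.toSw
  have d : cj[g] (B ⊔ cj[t] B) ≤ ⁅cj[g] (R ⊔ cj[t] R), cj[g] (R ⊔ cj[t] R)⁆ := by
    rw [← cj_commutator]; exact cj_mono g h.bd
  have cd : Nat.card B * Nat.card B = Nat.card (cj[g] (B ⊔ cj[t] B)) := by rw [card_cj, h.cardh]
  by_cases h0 : cj[g] (R ⊔ cj[t] R) ≤ 𝐍(G₁)
  · exact h.lin (d.trans ((commutator_mono (le_inf l h0) (le_inf l h0)).trans h.der)) (el_cj h.elh g) cd.le
  obtain ⟨s, hs, hn⟩ := SetLike.not_le_iff_exists.1 h0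
  have c : s ∈ 𝐂(cj[g] (B ⊔ cj[t] B)) := by rw [← cj_centralizer]; exact cj_mono g h.pc hs
  have lS : cj[g] (B ⊔ cj[t] B) ≤ S := (cj_mono g (sup_le_sup h.bR' (cj_mono t h.bR'))).trans l
  have a1 := h.rk (cj[g] (B ⊔ cj[t] B) ⊓ 𝐍(G₁)) (inf_le_inf_right _ lS) fun x hx => el_cj h.elh g x hx.1
  rw [(eq_bot_iff_forall (cj[g] (B ⊔ cj[t] B) ⊓ 𝐍(G₁) ⊓ 𝐂(G₁))).2 fun x hx => h.nsw lS (l hs) hn c hx.1.1 hx.2,
    relIndex_bot_left] at a1
  have a2 := idx w lS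
  have := h.big
  nlinarith

theorem wc (l : cj[g] (R ⊔ cj[t] R) ≤ S) : cj[g] (R ⊔ cj[t] R) = R ⊔ cj[t] R :=
  eq_of_le_of_card_ge (fun x i => h.cP (l i) (by rw [← h.wcB l, ← cj_centralizer]; exact cj_mono g h.pc i)) (card_cj _ _).ge

theorem ctl (hx : x ∈ B ⊔ cj[t] B) (hy : g * x * g⁻¹ ∈ B ⊔ cj[t] B) :
    ∃ n ∈ 𝐍(R ⊔ cj[t] R), n * x * n⁻¹ = g * x * g⁻¹ := by
  have hp : IsPGroup 2 ↥(R ⊔ cj[t] R) := h.syl.isPGroup.to_le h.pS
  have c1 : ∀ y ∈ B ⊔ cj[t] B, R ⊔ cj[t] R ≤ 𝐂₁(y) := fun y hy v hv =>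
    mem_c1.2 (mem_centralizer_iff'.1 (h.pc hv) y hy).symm
  obtain ⟨T, hT, hT'⟩ := exists_isSyl_ge hp (c1 _ hy)
  obtain ⟨c, hc, hc'⟩ := hT.exists_cj_le (isPGroup_cj g hp) (by rw [← cj_centralizer_singleton]; exact cj_mono g (c1 x hx))
  obtain ⟨k, -, hk⟩ := h.syl.exists_cj_le hT.isPGroup le_top
  have e1 := h.wc ((cj_mono k hT').trans hk)
  have e2 := h.wc (g := k * (c * g)) (by rw [cj_mul, cj_mul]; exact (cj_mono k hc').trans hk)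
  rw [cj_mul] at e2
  refine ⟨c * g, cj_eq_self_iff.1 (cj_inj.1 (e2.trans e1.symm)), ?_⟩
  calc c * g * x * (c * g)⁻¹ = c * (g * x * g⁻¹) * c⁻¹ := by group
    _ = _ := conj_eq_iff.2 (mem_c1.1 hc)

omit [Finite G] in
theorem cmp {a b a' b' : G} (ha : a ∈ R) (hb : b ∈ cj[t] R) (ha' : a' ∈ R) (hb' : b' ∈ cj[t] R) :
    a * b * (a' * b') = a' * b' * (a * b) ↔ a * a' = a' * a ∧ b * b' = b' * b := by
  have f : ∀ {a b a' b' : G}, b ∈ cj[t] R → a' ∈ R → a * b * (a' * b') = a * a' * (b * b') := fun {a b a' b'} i j => by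
    rw [mul_assoc, ← mul_assoc b, ← cm12 h.toSw (h.rle j).2 (h.r2 i).2]; group
  rw [f hb ha', f hb' ha]
  exact ⟨h.uq (h.rle (mul_mem ha ha')) (h.r2 (mul_mem hb hb')) (h.rle (mul_mem ha' ha)) (h.r2 (mul_mem hb' hb)),
    fun e => by rw [e.1, e.2]⟩

omit [Finite G] in
theorem side (hn : n ∈ 𝐍(R ⊔ cj[t] R)) (i : x ∈ R) : n * x * n⁻¹ ∈ R ⊔ cj[t] B ∨ n * x * n⁻¹ ∈ B ⊔ cj[t] R := by
  have w := h.toSw
  obtain ⟨a, ha, b, hb, e⟩ := (ms w h.rle h.r2).1 (conj_mem_of_mem_normalizer hn (mem_sup_left i))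
  by_contra! k
  have a0 : a ∉ B := fun o => k.2 (e ▸ mul_mem (mem_sup_left o) (mem_sup_right hb))
  have b0 : t * b * t⁻¹ ∉ B := fun o => k.1 (e ▸ mul_mem (mem_sup_left ha) (mem_sup_right ((mem_t w).2 o)))
  have c : ∀ y ∈ cj[t] R, ∃ u ∈ R, ∃ v ∈ cj[t] R, u * v = n * y * n⁻¹ ∧ a * u = u * a ∧ b * v = v * b := fun y j => by
    obtain ⟨u, hu, v, hv, f⟩ := (ms w h.rle h.r2).1 (conj_mem_of_mem_normalizer hn (mem_sup_right j))
    exact ⟨u, hu, v, hv, f, (h.cmp ha hb hu hv).1 (by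
      rw [e, f, ← conj_mul_conj, ← conj_mul_conj, cm12 w (h.rle i).2 (h.r2 j).2])⟩
  have : ⁅cj[t] R, cj[t] R⁆ = ⊥ := (eq_bot_iff).2 (commutator_le.2 fun y j y' j' => by
    obtain ⟨u, hu, v, hv, f, f1, f2⟩ := c y j
    obtain ⟨u', hu', v', hv', f', f1', f2'⟩ := c y' j'
    have g2 := h.ab _ ((mem_t w).1 hb) b0 _ ((mem_t w).1 hv) _ ((mem_t w).1 hv')
      (by rw [← conj_mul_conj, f2, conj_mul_conj]) (by rw [← conj_mul_conj, f2', conj_mul_conj])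
    rw [← conj_mul_conj, ← conj_mul_conj] at g2
    have := (h.cmp hu hv hu' hv').2 ⟨h.ab a ha a0 u hu u' hu' f1 f1', mul_left_cancel (mul_right_cancel g2)⟩
    rw [f, f', ← conj_mul_conj, ← conj_mul_conj] at this
    exact mem_bot.2 (commutatorElement_eq_one_iff_mul_comm.2 (mul_left_cancel (mul_right_cancel this))))
  have l := cj_mono t h.bR
  rw [cj_commutator, this, le_bot_iff] at l
  have k := h.big
  rw [← card_cj t B, l, card_bot] at k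
  omega

omit [Finite G] h in
theorem com_le {A C : Subgroup G} (c : C ≤ 𝐂(A)) (c' : C ≤ 𝐂(C)) : ⁅A ⊔ C, A ⊔ C⁆ ≤ A := commutator_le.2 fun x i y j => by
  obtain ⟨a, ha, b, hb, rfl⟩ := (mem_sup_of_le_normalizer (c.trans (centralizer_le_normalizer _))).1 i
  obtain ⟨a', ha', b', hb', rfl⟩ := (mem_sup_of_le_normalizer (c.trans (centralizer_le_normalizer _))).1 j
  have f1 := mem_centralizer_iff'.1 (c hb) a' ha'
  have f2 := mem_centralizer_iff'.1 (c hb') a ha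
  have f3 := mem_centralizer_iff'.1 (c' hb') b hb
  have : ⁅a * b, a' * b'⁆ = a * a' * a⁻¹ * a'⁻¹ := by
    calc ⁅a * b, a' * b'⁆ = a * (b * a') * (b' * b⁻¹) * a⁻¹ * b'⁻¹ * a'⁻¹ := by rw [commutatorElement_def]; group
      _ = a * (a' * b) * (b⁻¹ * b') * a⁻¹ * b'⁻¹ * a'⁻¹ := by
        rw [f1, show b' * b⁻¹ = b⁻¹ * b' by rw [eq_inv_mul_iff_mul_eq, ← mul_assoc, f3]; group]
      _ = a * a' * (b' * a⁻¹ * b'⁻¹) * a'⁻¹ := by group
      _ = _ := by rw [conj_eq_of_mem_centralizer (c hb') (inv_mem ha)]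
  rw [this]
  exact mul_mem (mul_mem (mul_mem ha ha') (inv_mem ha)) (inv_mem ha')

omit [Finite G] in
theorem pure (hn : n ∈ 𝐍(R ⊔ cj[t] R)) : cj[n] B ≤ S ⊓ G₁ ∨ cj[n] B ≤ S ⊓ G₂ := by
  have : cj[n] R ≤ R ⊔ cj[t] B ∨ cj[n] R ≤ B ⊔ cj[t] R := by
    by_contra! c
    have a : ∀ x ∈ cj[n] R, x ∈ R ⊔ cj[t] B ∨ x ∈ B ⊔ cj[t] R := fun x i => by
      simpa [mul_assoc] using h.side hn (mem_cj.1 i)
    obtain ⟨x, x1, x2⟩ := SetLike.not_le_iff_exists.1 c.1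
    obtain ⟨y, y1, y2⟩ := SetLike.not_le_iff_exists.1 c.2
    rcases a _ (mul_mem x1 y1) with d | d
    · exact x2 ((mul_mem_cancel_right ((a y y1).resolve_right y2)).1 d)
    · exact y2 ((mul_mem_cancel_left ((a x x1).resolve_left x2)).1 d)
  have d : cj[n] B ≤ ⁅cj[n] R, cj[n] R⁆ := by rw [← cj_commutator]; exact cj_mono n h.bR
  refine this.imp (fun l => ?_) fun l => ?_
  · exact (d.trans ((commutator_mono l l).trans (com_le (le_centralizer_iff.1 (le_sup_left.trans h.pc2))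
      (el_ab (el_cj h.bel t))))).trans h.rle
  · rw [sup_comm] at l
    exact (d.trans ((commutator_mono l l).trans (com_le (le_centralizer_iff.1 (le_sup_right.trans h.pc1))
      (el_ab h.bel)))).trans h.r2

theorem ip : IP G₁ G₂ := by
  intro a ha b hb c hc bb b1 cc c1 hj
  have w := h.toSw
  obtain ⟨g, eg⟩ := isConj_iff.1 hj
  have aa : a * a = 1 := by
    have : g * (a * a) * g⁻¹ = 1 := by
      rw [conj_mul_conj, eg]
      calc b * c * (b * c) = b * (c * b) * c := by group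
        _ = (b * b) * (c * c) := by rw [← cm12 w hb hc]; group
        _ = 1 := by rw [bb, cc, one_mul]
    simpa using this
  obtain ⟨u, -, hu⟩ := h.inv a ha aa
  obtain ⟨v, hv, hv'⟩ := h.inv b hb bb
  obtain ⟨y, hy, hy'⟩ := h.inv (t * c * t⁻¹) (t2 w ▸ conj_mem_cj t hc) (by rw [← conj_mul_conj, cc]; group)
  have hy2 : t * y * t⁻¹ ∈ G₂ := h.t1 ▸ conj_mem_cj t hy
  have hc' : t * y * t⁻¹ * c * (t * y * t⁻¹)⁻¹ ∈ cj[t] B := by
    have := conj_mem_cj t hy'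
    rw [conj_mul_conj, conj_mul_conj, tc w] at this
    convert this using 1
    group
  generalize t * y * t⁻¹ = y at hy2 hc'
  have e : v * y * g * u⁻¹ * (u * a * u⁻¹) * (v * y * g * u⁻¹)⁻¹ = v * b * v⁻¹ * (y * c * y⁻¹) := by
    calc v * y * g * u⁻¹ * (u * a * u⁻¹) * (v * y * g * u⁻¹)⁻¹ = v * (y * (g * a * g⁻¹) * y⁻¹) * v⁻¹ := by group
      _ = _ := by
        rw [eg, conj_mul_conj y, conj_eq_of_mem_centralizer (com' w hy2) hb, conj_mul_conj v,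
          conj_eq_of_mem_centralizer (h.com hv) (h.b2 hc').2]
  obtain ⟨n, hn, en⟩ := h.ctl (mem_sup_left hu) (e ▸ mul_mem (mem_sup_left hv') (mem_sup_right hc'))
  rw [e] at en
  rcases h.pure hn with m | m
  · exact c1 (by simpa using (h.uq (h.ble hv') (h.b2 hc') (m (conj_mem_cj n hu)) (one_mem _) (by rw [en, mul_one])).2)
  · exact b1 (by simpa using (h.uq (h.ble hv') (h.b2 hc') (one_mem _) (m (conj_mem_cj n hu)) (by rw [en, one_mul])).1)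

end IW
end CF.U5
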